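/-
Refinements of the Hall-Higman analysis: invariant irreducibles inside a given subspace, and
the dichotomy for a normal factor commuting on the module.
-/
import Cfsg.Agent.Lib.HallHigman.CoreFull

set_option autoImplicit false
set_option linter.style.haveILetI false

namespace Cfsg.Agent.Lib.HHLen.Basic

open Module Cfsg.Agent.Lib.HallHigman.Irr Cfsg.Agent.Lib.HallHigman.Core

universe u v w

section inv

variable {H : Type w} [Group H] {K : Type u} [Field K] [IsAlgClosed K] {V : Type v}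
  [AddCommGroup V] [Module K V] [FiniteDimensional K V]
variable {ρ : H →* End K V} {Q : Subgroup H}

theorem exists_invariant_irr_le {t : H} (ht : t ∈ Subgroup.normalizer (Q : Set H)) {U₁ S₀ : Submodule K V}
    (hS₀ : ∀ u ∈ S₀, ρ t u ∈ S₀) (hle : U₁ ≤ S₀)
    (hU₁ : IsIrr ρ Q U₁) (hS : HomNZ ρ Q (tw ρ t U₁) U₁) :
    ∃ U, U ≤ S₀ ∧ IsIrr ρ Q U ∧ (∀ u ∈ U, ρ t u ∈ U) ∧ HomNZ ρ Q U₁ U := by
  classical
  obtain ⟨f, h0, h1, h2⟩ := hS
  have hinj := (hU₁.tw ht).inj_of_hom h1 h2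
  have hmaps : ∀ u ∈ U₁, (f * ρ t) u ∈ U₁ := fun u hu => h0 _ (apply_mem_tw hu)
  let A : End K U₁ := (f * ρ t).restrict hmaps
  have hA : ∀ u : U₁, ((A u : U₁) : V) = f (ρ t u) := fun u => rfl
  have hAinj : Function.Injective A := by
    rw [← LinearMap.ker_eq_bot, LinearMap.ker_eq_bot']
    intro u hu
    apply Subtype.ext
    have h3 : f (ρ t u) = 0 := by
      rw [← hA, hu]
      rfl
    have h4 := hinj _ (apply_mem_tw u.2) h3
    rw [← rho_inv_apply ρ t u, h4, map_zero]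
    rfl
  let A' : U₁ ≃ₗ[K] U₁ := LinearEquiv.ofInjectiveEndo A hAinj
  have hA' : ∀ u : U₁, A' u = A u := fun u => rfl
  have hArel : ∀ g ∈ Q, ∀ a b : U₁, (b : V) = ρ g a → ((A b : U₁) : V) = ρ (t * g * t⁻¹) (A a) := by
    intro g hg a b hb
    rw [hA, hA, hb]
    have h3 : ρ t (ρ g a) = ρ (t * g * t⁻¹) (ρ t a) := by
      rw [← Module.End.mul_apply, ← Module.End.mul_apply, ← map_mul, ← map_mul]
      simp
    rw [h3]
    exact h1 _ (conj_mem_of_mem_normalizer ht hg) _ (apply_mem_tw a.2)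
  let E : Submodule K (U₁ →ₗ[K] V) :=
    { carrier := {h | (∀ g ∈ Q, ∀ a b : U₁, (b : V) = ρ g a → h b = ρ g (h a)) ∧ ∀ a, h a ∈ S₀}
      add_mem' := by
        intro h h' hh hh'
        refine ⟨fun g hg a b hb => ?_, fun a => ?_⟩
        · simp only [LinearMap.add_apply, map_add]
          rw [hh.1 g hg a b hb, hh'.1 g hg a b hb]
        · exact S₀.add_mem (hh.2 a) (hh'.2 a)
      zero_mem' := by
        refine ⟨fun g hg a b hb => ?_, fun a => ?_⟩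
        · simp
        · simp
      smul_mem' := by
        intro c h hh
        refine ⟨fun g hg a b hb => ?_, fun a => ?_⟩
        · simp only [LinearMap.smul_apply, map_smul]
          rw [hh.1 g hg a b hb]
        · exact S₀.smul_mem c (hh.2 a) }
  have hEinc : U₁.subtype ∈ E := by
    refine ⟨fun g hg a b hb => ?_, fun a => hle a.2⟩
    exact hb
  have hEne : Nontrivial E := by
    refine ⟨⟨⟨U₁.subtype, hEinc⟩, 0, ?_⟩⟩
    intro h
    have h3 : U₁.subtype = 0 := congrArg Subtype.val h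
    apply hU₁.ne_bot
    rw [Submodule.eq_bot_iff]
    intro u hu
    exact LinearMap.congr_fun h3 ⟨u, hu⟩
  have hBmem : ∀ h ∈ E, (ρ t) ∘ₗ h ∘ₗ (A'.symm : U₁ →ₗ[K] U₁) ∈ E := by
    intro h hh
    refine ⟨fun g hg a b hb => ?_, fun a => hS₀ _ (hh.2 _)⟩
    simp only [LinearMap.comp_apply]
    -- `A'⁻¹ b = g' A'⁻¹ a`, with `g' = t⁻¹ g t`
    have hg' : t⁻¹ * g * t ∈ Q := inv_conj_mem_of_mem_normalizer ht hg
    let c : U₁ := A'.symm a
    have hgc : ρ (t⁻¹ * g * t) c ∈ U₁ := hU₁.inv _ hg' _ c.2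
    let d : U₁ := ⟨ρ (t⁻¹ * g * t) c, hgc⟩
    have h3 := hArel _ hg' c d rfl
    have h4 : t * (t⁻¹ * g * t) * t⁻¹ = g := by group
    rw [h4] at h3
    have h5 : ((A c : U₁) : V) = a := by
      have : A' c = a := A'.apply_symm_apply a
      rw [← hA', this]
    rw [h5, ← hb] at h3
    have h6 : A' d = b := Subtype.ext h3
    have h7 : (A'.symm : U₁ →ₗ[K] U₁) b = d := by
      change A'.symm b = d
      rw [← h6, LinearEquiv.symm_apply_apply]
    rw [h7]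
    have h8 := hh.1 _ hg' c d rfl
    rw [h8]
    have h9 : (A'.symm : U₁ →ₗ[K] U₁) a = c := rfl
    rw [h9, ← Module.End.mul_apply, ← Module.End.mul_apply, ← map_mul, ← map_mul]
    simp
  let B : End K E :=
    { toFun := fun h => ⟨(ρ t) ∘ₗ h.1 ∘ₗ (A'.symm : U₁ →ₗ[K] U₁), hBmem h.1 h.2⟩
      map_add' := by
        intro a b
        apply Subtype.ext
        apply LinearMap.ext
        intro x
        simp
      map_smul' := by
        intro c a
        apply Subtype.ext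
        apply LinearMap.ext
        intro x
        simp }
  obtain ⟨μ, hμ⟩ := Module.End.exists_eigenvalue B
  obtain ⟨h₀, hh₀⟩ := hμ.exists_hasEigenvector
  have heig : B h₀ = μ • h₀ := hh₀.apply_eq_smul
  have hh₀ne : (h₀ : U₁ →ₗ[K] V) ≠ 0 := fun h => hh₀.2 (Subtype.ext h)
  have hmap : ∀ a : U₁, ρ t ((h₀ : U₁ →ₗ[K] V) a) = μ • (h₀ : U₁ →ₗ[K] V) (A' a) := by
    intro a
    have h3 := congrArg Subtype.val heig
    have h4 := LinearMap.congr_fun h3 (A' a)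
    simpa [B] using h4
  have hQlin : ∀ g ∈ Q, ∀ a b : U₁, (b : V) = ρ g a →
      (h₀ : U₁ →ₗ[K] V) b = ρ g ((h₀ : U₁ →ₗ[K] V) a) := h₀.2.1
  let U : Submodule K V := LinearMap.range (h₀ : U₁ →ₗ[K] V)
  have hUinv : IsInv ρ Q U := by
    rintro g hg _ ⟨a, rfl⟩
    exact ⟨⟨ρ g a, hU₁.inv g hg _ a.2⟩, hQlin g hg a _ rfl⟩
  have hker : ∀ a : U₁, (h₀ : U₁ →ₗ[K] V) a = 0 → a = 0 := by
    have hinv : IsInv ρ Q ((LinearMap.ker (h₀ : U₁ →ₗ[K] V)).map U₁.subtype) := by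
      rintro g hg _ ⟨a, ha, rfl⟩
      refine ⟨⟨ρ g a, hU₁.inv g hg _ a.2⟩, ?_, rfl⟩
      rw [SetLike.mem_coe, LinearMap.mem_ker] at ha ⊢
      rw [hQlin g hg a _ rfl, ha, map_zero]
    rcases hU₁.min _ (Submodule.map_subtype_le _ _) hinv with h | h
    · intro a ha
      have : (a : V) ∈ (LinearMap.ker (h₀ : U₁ →ₗ[K] V)).map U₁.subtype := ⟨a, ha, rfl⟩
      rw [h] at this
      exact Subtype.ext ((Submodule.mem_bot K).mp this)
    · exfalso
      apply hh₀ne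
      apply LinearMap.ext
      intro a
      have : (a : V) ∈ (LinearMap.ker (h₀ : U₁ →ₗ[K] V)).map U₁.subtype := by
        rw [h]
        exact a.2
      obtain ⟨a', ha', h3⟩ := this
      have h4 : a' = a := Subtype.ext h3
      rw [← h4]
      exact ha'
  have hUirr : IsIrr ρ Q U := by
    refine ⟨?_, hUinv, ?_⟩
    · intro h
      apply hh₀ne
      exact LinearMap.range_eq_bot.mp h
    · intro W' hle hW'
      have hinv : IsInv ρ Q ((W'.comap (h₀ : U₁ →ₗ[K] V)).map U₁.subtype) := by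
        rintro g hg _ ⟨a, ha, rfl⟩
        refine ⟨⟨ρ g a, hU₁.inv g hg _ a.2⟩, ?_, rfl⟩
        rw [SetLike.mem_coe, Submodule.mem_comap] at ha ⊢
        rw [hQlin g hg a _ rfl]
        exact hW' g hg _ ha
      rcases hU₁.min _ (Submodule.map_subtype_le _ _) hinv with h | h
      · left
        rw [Submodule.eq_bot_iff]
        intro w hw
        obtain ⟨a, rfl⟩ := hle hw
        have : (a : V) ∈ (W'.comap (h₀ : U₁ →ₗ[K] V)).map U₁.subtype := ⟨a, hw, rfl⟩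
        rw [h] at this
        have h3 : a = 0 := Subtype.ext ((Submodule.mem_bot K).mp this)
        rw [h3, map_zero]
      · right
        apply le_antisymm hle
        rintro _ ⟨a, rfl⟩
        have : (a : V) ∈ (W'.comap (h₀ : U₁ →ₗ[K] V)).map U₁.subtype := by
          rw [h]
          exact a.2
        obtain ⟨a', ha', h3⟩ := this
        have h4 : a' = a := Subtype.ext h3
        rw [← h4]
        exact ha'
  refine ⟨U, ?_, hUirr, ?_, ?_⟩
  · rintro _ ⟨a, rfl⟩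
    exact h₀.2.2 a
  · rintro _ ⟨a, rfl⟩
    rw [hmap]
    exact Submodule.smul_mem _ _ ⟨_, rfl⟩
  · obtain ⟨F, hF⟩ := LinearMap.exists_extend (h₀ : U₁ →ₗ[K] V)
    have hF' : ∀ a : U₁, F a = (h₀ : U₁ →ₗ[K] V) a := fun a => LinearMap.congr_fun hF a
    refine ⟨F, ?_, ?_, ?_⟩
    · intro a ha
      rw [hF' ⟨a, ha⟩]
      exact ⟨_, rfl⟩
    · intro g hg a ha
      have h3 := hF' ⟨a, ha⟩
      have h4 := hF' ⟨ρ g a, hU₁.inv g hg a ha⟩
      simp only at h3 h4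
      rw [h3, h4]
      exact hQlin g hg ⟨a, ha⟩ _ rfl
    · obtain ⟨u, hu⟩ : ∃ u : U₁, u ≠ 0 := by
        obtain ⟨a, ha, ha0⟩ := Submodule.exists_mem_ne_zero_of_ne_bot hU₁.ne_bot
        exact ⟨⟨a, ha⟩, fun h => ha0 (congrArg Subtype.val h)⟩
      refine ⟨u, u.2, ?_⟩
      rw [hF']
      exact fun h => hu (hker u h)


end inv

section central

variable {H : Type w} [Group H] {K : Type u} [Field K] {V : Type v} [AddCommGroup V] [Module K V]

/-- The elements of `Q` central on the `Q`-invariant subspace `U`. -/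
def Qs (ρ : H →* End K V) (Q : Subgroup H) (U : Submodule K V) (hU : IsInv ρ Q U) : Subgroup H where
  carrier := {g | g ∈ Q ∧ ∀ h ∈ Q, ∀ u ∈ U, ρ g (ρ h u) = ρ h (ρ g u)}
  mul_mem' := by
    rintro a b ⟨ha, ha'⟩ ⟨hb, hb'⟩
    refine ⟨Q.mul_mem ha hb, fun h hh u hu => ?_⟩
    rw [map_mul, Module.End.mul_apply, Module.End.mul_apply, hb' h hh u hu,
      ha' h hh _ (hU b hb u hu)]
  one_mem' := by
    refine ⟨Q.one_mem, fun h _ u _ => ?_⟩
    simp
  inv_mem' := by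
    rintro a ⟨ha, ha'⟩
    refine ⟨Q.inv_mem ha, fun h hh u hu => ?_⟩
    have h1 := ha' h hh _ (hU _ (Q.inv_mem ha) u hu)
    rw [rho_apply_inv] at h1
    rw [← h1, rho_inv_apply]

theorem mem_Qs {ρ : H →* End K V} {Q : Subgroup H} {U : Submodule K V} {hU : IsInv ρ Q U} {g : H} :
    g ∈ Qs ρ Q U hU ↔ g ∈ Q ∧ ∀ h ∈ Q, ∀ u ∈ U, ρ g (ρ h u) = ρ h (ρ g u) := Iff.rfl

theorem Qs_le {ρ : H →* End K V} {Q : Subgroup H} {U : Submodule K V} {hU : IsInv ρ Q U} :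
    Qs ρ Q U hU ≤ Q := fun _ hg => hg.1

/-- Conjugation by an element normalizing `Q` and stabilizing `U` preserves `Qs`. -/
theorem conj_mem_Qs {ρ : H →* End K V} {Q : Subgroup H} {U : Submodule K V} {hU : IsInv ρ Q U}
    {s : H} (hs : s ∈ Subgroup.normalizer (Q : Set H)) (hsU : ∀ u ∈ U, ρ s u ∈ U)
    (hsU' : ∀ u ∈ U, ρ s⁻¹ u ∈ U) {g : H} (hg : g ∈ Qs ρ Q U hU) : s * g * s⁻¹ ∈ Qs ρ Q U hU := by
  obtain ⟨hg1, hg2⟩ := mem_Qs.mp hg
  refine mem_Qs.mpr ⟨conj_mem_of_mem_normalizer hs hg1, fun h hh u hu => ?_⟩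
  have hh' : s⁻¹ * h * s ∈ Q := inv_conj_mem_of_mem_normalizer hs hh
  have e1 : ρ (s * g * s⁻¹) (ρ h u) = ρ s (ρ g (ρ (s⁻¹ * h * s) (ρ s⁻¹ u))) := by
    simp only [map_mul, Module.End.mul_apply, rho_apply_inv]
  have e2 : ρ h (ρ (s * g * s⁻¹) u) = ρ s (ρ (s⁻¹ * h * s) (ρ g (ρ s⁻¹ u))) := by
    simp only [map_mul, Module.End.mul_apply, rho_apply_inv]
  rw [e1, e2, hg2 _ hh' _ (hsU' u hu)]

variable {p : ℕ} [hp : Fact p.Prime]

/-- The hypothesis of `critical_sub` from the structure of `C_Q(y)`. -/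
theorem hF_of_hZ [Finite H] {q : ℕ} [Fact q.Prime] (hpq : p ≠ q) (ρ : H →* End K V) (Q : Subgroup H)
    (hQ : IsPGroup q Q) {U : Submodule K V} (hU : IsIrr ρ Q U) {t : H}
    (htx : t ∈ Subgroup.normalizer (Q : Set H)) (htU : ∀ u ∈ U, ρ t u ∈ U) (n₀ : ℕ)
    (hordt : orderOf t = p ^ (n₀ + 1))
    (hZ : ∀ g ∈ Q, g * t ^ p ^ n₀ = t ^ p ^ n₀ * g → ∀ h ∈ Q, ∀ u ∈ U, ρ g (ρ h u) = ρ h (ρ g u)) :
    ∀ c ∈ Subgroup.zpowers t, c ≠ 1 → ∀ g ∈ Q,
      (∀ h ∈ Q, ∀ u ∈ U, ρ (g⁻¹ * (c * g * c⁻¹)) (ρ h u) = ρ h (ρ (g⁻¹ * (c * g * c⁻¹)) u)) →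
      ∀ h ∈ Q, ∀ u ∈ U, ρ g (ρ h u) = ρ h (ρ g u) := by
  classical
  have hpp : p.Prime := hp.out
  have hqpos : q.Prime := Fact.out
  have htfin : IsOfFinOrder t := isOfFinOrder_of_finite t
  have htpow : ∀ j : ℕ, ∀ u ∈ U, ρ (t ^ j) u ∈ U := by
    intro j
    induction j with
    | zero =>
      intro u hu
      simpa using hu
    | succ j ih =>
      intro u hu
      rw [pow_succ', map_mul, Module.End.mul_apply]
      exact htU _ (ih u hu)
  have hcU : ∀ c ∈ Subgroup.zpowers t, ∀ u ∈ U, ρ c u ∈ U := by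
    intro c hc u hu
    obtain ⟨j, rfl⟩ := htfin.mem_powers_iff_mem_zpowers.mpr hc
    exact htpow j u hu
  have hcn : ∀ c ∈ Subgroup.zpowers t, c ∈ Subgroup.normalizer (Q : Set H) := by
    intro c hc
    exact (Subgroup.zpowers_le.mpr htx) hc
  let Qs' := Qs ρ Q U hU.inv
  have hQsmem : ∀ g, g ∈ Qs' ↔ g ∈ Q ∧ ∀ h ∈ Q, ∀ u ∈ U, ρ g (ρ h u) = ρ h (ρ g u) := fun g => Iff.rfl
  have hconjQs : ∀ s, s ∈ Subgroup.normalizer (Q : Set H) → (∀ u ∈ U, ρ s u ∈ U) →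
      (∀ u ∈ U, ρ s⁻¹ u ∈ U) → ∀ g ∈ Qs', s * g * s⁻¹ ∈ Qs' := fun s hs hsU hsU' g hg =>
    conj_mem_Qs hs hsU hsU' hg
  have hQsnorm : Q ≤ Subgroup.normalizer (Qs' : Set H) := by
    intro b hb
    rw [Subgroup.mem_normalizer_iff]
    intro g
    constructor
    · intro hg
      exact hconjQs b (Subgroup.le_normalizer hb) (hU.inv b hb) (hU.inv _ (Q.inv_mem hb)) g hg
    · intro hg
      have := hconjQs b⁻¹ (Subgroup.le_normalizer (Q.inv_mem hb)) (hU.inv _ (Q.inv_mem hb))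
        (by simpa using hU.inv b hb) _ hg
      simpa [mul_assoc] using this
  set y := t ^ p ^ n₀ with hy
  have hyt' : y ∈ Subgroup.zpowers t := by
    rw [hy]
    exact Subgroup.pow_mem _ (Subgroup.mem_zpowers t) _
  have hyp : y ^ p = 1 := by
    rw [hy, ← pow_mul, ← pow_succ, ← hordt, pow_orderOf_eq_one]
  have hAQ : Subgroup.zpowers y ≤ Subgroup.normalizer (Q : Set H) :=
    Subgroup.zpowers_le.mpr (hcn y hyt')
  have hAQs : Subgroup.zpowers y ≤ Subgroup.normalizer (Qs' : Set H) := by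
    rw [Subgroup.zpowers_le, Subgroup.mem_normalizer_iff]
    intro g
    have hy' := Subgroup.inv_mem _ hyt'
    constructor
    · intro hg
      exact hconjQs y (hcn y hyt') (hcU y hyt') (hcU _ hy') g hg
    · intro hg
      have := hconjQs y⁻¹ (hcn _ hy') (hcU _ hy') (by simpa using hcU y hyt') _ hg
      simpa [mul_assoc] using this
  have hcop : (Nat.card (Subgroup.zpowers y)).Coprime (Nat.card Q) := by
    obtain ⟨m, hm⟩ := IsPGroup.iff_card.mp hQ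
    rw [hm, Nat.card_zpowers]
    apply Nat.Coprime.pow_right
    exact Nat.Coprime.coprime_dvd_left (orderOf_dvd_of_pow_eq_one hyp)
      ((Nat.coprime_primes hpp hqpos).mpr hpq)
  have hsolv : Group.IsSolvable (Subgroup.zpowers y) := by
    infer_instance
  have hQsQ : Qs' ≤ Q := fun g hg => hg.1
  intro c hc hc1 g hg hcomm
  obtain ⟨l, hl⟩ := exists_pow_eq (n := n₀) hordt hc hc1 htfin
  rw [← hy] at hl
  have hz : g⁻¹ * (c * g * c⁻¹) ∈ Qs' := (hQsmem _).mpr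
    ⟨Q.mul_mem (Q.inv_mem hg) (conj_mem_of_mem_normalizer (hcn c hc) hg), hcomm⟩
  have hfix0 : ∀ j : ℕ, g⁻¹ * (c ^ j * g * (c ^ j)⁻¹) ∈ Qs' := by
    intro j
    induction j with
    | zero => simp [Qs'.one_mem]
    | succ j ih =>
      have h1 := hconjQs c (hcn c hc) (hcU c hc) (hcU _ (Subgroup.inv_mem _ hc)) _ ih
      have h2 := Qs'.mul_mem hz h1
      convert h2 using 1
      rw [pow_succ']
      group
  have hfix : ∀ a ∈ Subgroup.zpowers y, a * g * a⁻¹ * g⁻¹ ∈ Qs' := by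
    intro a ha
    have hyfin : IsOfFinOrder y := isOfFinOrder_of_finite y
    obtain ⟨w, rfl⟩ := hyfin.mem_powers_iff_mem_zpowers.mpr ha
    have h1 := hfix0 (l * w)
    have h2 : (fun j => y ^ j) w = c ^ (l * w) := by
      simp only
      rw [pow_mul, hl]
    rw [h2]
    have h3 := hconjQs g (Subgroup.le_normalizer hg) (hU.inv g hg) (hU.inv _ (Q.inv_mem hg)) _ h1
    convert h3 using 1
    group
  obtain ⟨c', hc', hgc'⟩ := Cfsg.Agent.Lib.Coprime.Action.exists_fixed_of_fixed_mod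
    Qs' hAQ hcop (Or.inl hsolv) hQsQ hQsnorm hAQs hg hfix
  have hc'Q : c' ∈ Q := hc'.1
  have hc'y : c' * y = y * c' := by
    have h9 : c' ∈ Subgroup.centralizer (Subgroup.zpowers y : Set H) := hc'.2
    rw [Subgroup.mem_centralizer_iff] at h9
    exact (h9 y (Subgroup.mem_zpowers y)).symm
  have hc'Qs : c' ∈ Qs' := (hQsmem _).mpr ⟨hc'Q, hZ c' hc'Q hc'y⟩
  have hgQs : g ∈ Qs' := by
    have := Qs'.mul_mem hc'Qs (Qs'.inv_mem hgc')
    simpa using this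
  exact ((hQsmem g).mp hgQs).2

omit hp in
/-- An invariant subspace in a finite sum of irreducibles maps non-trivially to one of them. -/
theorem exists_homNZ_of_le_sup {ρ : H →* End K V} {Q : Subgroup H} {ι : Type*}
    (A : ι → Submodule K V) (hA : ∀ i, IsIrr ρ Q (A i)) {S : Submodule K V} (hS : IsInv ρ Q S)
    (hS0 : S ≠ ⊥) (F : Finset ι) (hle : S ≤ F.sup A) : ∃ i, HomNZ ρ Q S (A i) := by
  classical
  induction F using Finset.induction_on with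
  | empty =>
    exfalso
    apply hS0
    simpa using hle
  | insert i F _ ih =>
    rw [Finset.sup_insert] at hle
    by_cases hF : S ≤ F.sup A
    · exact ih hF
    · exact ⟨i, homNZ_of_le_sup hS (hA i) (isInv_finset_sup A (fun i => (hA i).inv) F) hle hF⟩

end central

section dichotomy

variable {H : Type w} [Group H] {K : Type u} [Field K] [IsAlgClosed K] {V : Type v}
  [AddCommGroup V] [Module K V] [FiniteDimensional K V] {p : ℕ} [hp : Fact p.Prime] [CharP K p]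

/-- The dichotomy: `Q₁ = C₁ Q₂`, with `C₁` and `Q₂` commuting on the `Q₁`-irreducible `W₁`, and `t`
normalizing `Q₂` with `(t - 1) ^ (|t| - 1) = 0` on `W₁`, `t` of order `p ^ (n + 1)`; if the elements of
`Q₂` commuting with `y = t ^ p ^ n` are central on `W₁`, then either `Q₂` is commutative on `W₁`, or
`W₁` contains a `t`-invariant `Q₂`-irreducible of dimension `|t| - 1`. -/
theorem dichotomy [Finite H] {q : ℕ} [Fact q.Prime] (hq : (q : K) ≠ 0) (hpq : p ≠ q)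
    (ρ : H →* End K V) (Q₁ Q₂ C₁ : Subgroup H) (hQ₁ : IsPGroup q Q₁) (hQ₂₁ : Q₂ ≤ Q₁) (hC₁ : C₁ ≤ Q₁)
    (hC₁n : C₁ ≤ Subgroup.normalizer (Q₂ : Set H))
    (hdec : ∀ g ∈ Q₁, ∃ c ∈ C₁, ∃ m ∈ Q₂, g = c * m)
    {W₁ : Submodule K V} (hW₁ : IsIrr ρ Q₁ W₁) {t : H} (ht : t ∈ Subgroup.normalizer (Q₂ : Set H))
    (htW : ∀ u ∈ W₁, ρ t u ∈ W₁) (n : ℕ) (hord : orderOf t = p ^ (n + 1))
    (hcomm : ∀ c ∈ C₁, ∀ m ∈ Q₂, ∀ u ∈ W₁, ρ c (ρ m u) = ρ m (ρ c u))
    (hZ : ∀ g ∈ Q₂, g * t ^ p ^ n = t ^ p ^ n * g → ∀ h ∈ Q₂, ∀ u ∈ W₁, ρ g (ρ h u) = ρ h (ρ g u))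
    (hnil : ∀ u ∈ W₁, ((ρ t - 1) ^ (p ^ (n + 1) - 1)) u = 0) :
    (∀ g ∈ Q₂, ∀ h ∈ Q₂, ∀ u ∈ W₁, ρ g (ρ h u) = ρ h (ρ g u)) ∨
      ∃ W₂, W₂ ≤ W₁ ∧ IsIrr ρ Q₂ W₂ ∧ (∀ u ∈ W₂, ρ t u ∈ W₂) ∧ finrank K W₂ + 1 = p ^ (n + 1) := by
  classical
  have hpp : p.Prime := hp.out
  have hQ₂ : IsPGroup q Q₂ := hQ₁.to_le hQ₂₁
  have hW₁Q₂ : IsInv ρ Q₂ W₁ := fun g hg => hW₁.inv g (hQ₂₁ hg)
  -- a `Q₂`-irreducible in `W₁`
  let Pr : Submodule K V → Prop := fun W' => W' ≠ ⊥ ∧ W' ≤ W₁ ∧ IsInv ρ Q₂ W'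
  obtain ⟨W₃, hW₃m⟩ := exists_minimal_of_wellFoundedLT Pr ⟨W₁, hW₁.ne_bot, le_rfl, hW₁Q₂⟩
  obtain ⟨h31, h32, h33⟩ := hW₃m.1
  have hW₃ : IsIrr ρ Q₂ W₃ := by
    refine ⟨h31, h33, fun W' hW' hinv => ?_⟩
    by_cases h0 : W' = ⊥
    · exact Or.inl h0
    · exact Or.inr (le_antisymm hW' (hW₃m.2 ⟨h0, hW'.trans h32, hinv⟩ hW'))
  -- the translates
  letI : Fintype C₁ := Fintype.ofFinite C₁
  let Tr : C₁ → Submodule K V := fun c => tw ρ c.1 W₃
  have hTrIrr : ∀ c, IsIrr ρ Q₂ (Tr c) := fun c => hW₃.tw (hC₁n c.2)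
  have hTrle : ∀ c, Tr c ≤ W₁ := by
    rintro c _ ⟨w, hw, rfl⟩
    exact hW₁.inv _ (hC₁ c.2) _ (h32 hw)
  have hSup : (Finset.univ : Finset C₁).sup Tr = W₁ := by
    have hle : (Finset.univ : Finset C₁).sup Tr ≤ W₁ := Finset.sup_le (fun c _ => hTrle c)
    have hinv : IsInv ρ Q₁ ((Finset.univ : Finset C₁).sup Tr) := by
      have key : ∀ (c₀ : C₁) (m : H), m ∈ Q₂ → ∀ c : C₁, ∀ v ∈ Tr c,
          ρ (c₀.1 * m) v ∈ (Finset.univ : Finset C₁).sup Tr := by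
        rintro c₀ m hm c _ ⟨w, hw, rfl⟩
        have h1 : ρ (c₀.1 * m) (ρ c.1 w) = ρ (c₀ * c).1 (ρ m w) := by
          have h2 := hcomm c.1 c.2 m hm w (h32 hw)
          simp only [map_mul, Module.End.mul_apply, Subgroup.coe_mul]
          rw [h2]
        rw [h1]
        have h3 : ρ (c₀ * c).1 (ρ m w) ∈ Tr (c₀ * c) := apply_mem_tw (h33 m hm w hw)
        exact (Finset.le_sup (f := Tr) (Finset.mem_univ (c₀ * c))) h3
      intro g hg v hv
      obtain ⟨c₀, hc₀, m, hm, rfl⟩ := hdec g hg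
      have hall : ∀ F : Finset C₁, ∀ v ∈ F.sup Tr,
          ρ (c₀ * m) v ∈ (Finset.univ : Finset C₁).sup Tr := by
        intro F
        induction F using Finset.induction_on with
        | empty =>
          intro v hv
          have h0 : v = 0 := by simpa using hv
          rw [h0, map_zero]
          exact Submodule.zero_mem _
        | insert i F _ ih =>
          intro v hv
          rw [Finset.sup_insert] at hv
          obtain ⟨a, ha, b, hb, rfl⟩ := Submodule.mem_sup.mp hv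
          rw [map_add]
          exact Submodule.add_mem _ (key ⟨c₀, hc₀⟩ m hm i a ha) (ih b hb)
      exact hall _ v hv
    rcases hW₁.min _ hle hinv with h | h
    · exfalso
      have h1 : W₃ ≤ (Finset.univ : Finset C₁).sup Tr := by
        have h2 : W₃ ≤ Tr 1 := by
          intro w hw
          have h3 : Tr 1 = W₃ := tw_one W₃
          rwa [h3]
        exact h2.trans (Finset.le_sup (f := Tr) (Finset.mem_univ 1))
      rw [h] at h1
      exact h31 (le_bot_iff.mp h1)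
    · exact h
  -- transfer from `W₃` to `W₁`
  have htrans : ∀ a ∈ Q₂, ∀ b ∈ Q₂, (∀ w ∈ W₃, ρ a w = ρ b w) → ∀ v ∈ W₁, ρ a v = ρ b v := by
    intro a ha b hb hab v hv
    rw [← hSup] at hv
    have hall : ∀ F : Finset C₁, ∀ v ∈ F.sup Tr, ρ a v = ρ b v := by
      intro F
      induction F using Finset.induction_on with
      | empty =>
        intro v hv
        have h0 : v = 0 := by simpa using hv
        rw [h0, map_zero, map_zero]
      | insert i F _ ih =>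
        intro v hv
        rw [Finset.sup_insert] at hv
        obtain ⟨x, hx, y, hy, rfl⟩ := Submodule.mem_sup.mp hv
        rw [map_add, map_add, ih y hy]
        congr 1
        obtain ⟨w, hw, rfl⟩ := hx
        have h1 := hcomm i.1 i.2 a ha w (h32 hw)
        have h2 := hcomm i.1 i.2 b hb w (h32 hw)
        change ρ a (ρ i.1 w) = ρ b (ρ i.1 w)
        rw [← h1, ← h2, hab w hw]
    exact hall _ v hv
  -- the type is `t`-stable
  have hS : HomNZ ρ Q₂ (tw ρ t W₃) W₃ := by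
    have h1 : IsIrr ρ Q₂ (tw ρ t W₃) := hW₃.tw ht
    have h2 : tw ρ t W₃ ≤ (Finset.univ : Finset C₁).sup Tr := by
      rw [hSup]
      rintro _ ⟨w, hw, rfl⟩
      exact htW _ (h32 hw)
    obtain ⟨c, hc⟩ := exists_homNZ_of_le_sup Tr hTrIrr h1.inv h1.ne_bot _ h2
    refine HomNZ.trans (hTrIrr c) hc ?_
    refine ⟨ρ c.1⁻¹, ?_, ?_, ?_⟩
    · rintro _ ⟨w, hw, rfl⟩
      rwa [rho_inv_apply]
    · rintro g hg _ ⟨w, hw, rfl⟩
      have h3 := hcomm c.1 c.2 g hg w (h32 hw)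
      change ρ c.1⁻¹ (ρ g (ρ c.1 w)) = ρ g (ρ c.1⁻¹ (ρ c.1 w))
      rw [← h3, rho_inv_apply, rho_inv_apply]
    · obtain ⟨w, hw, hw0⟩ := Submodule.exists_mem_ne_zero_of_ne_bot h31
      refine ⟨ρ c.1 w, apply_mem_tw hw, ?_⟩
      rwa [rho_inv_apply]
  obtain ⟨W₂, hW₂le, hW₂, htW₂, hhom⟩ := exists_invariant_irr_le ht htW h32 hW₃ hS
  have hZ₂ : ∀ g ∈ Q₂, g * t ^ p ^ n = t ^ p ^ n * g → ∀ h ∈ Q₂, ∀ u ∈ W₂,
      ρ g (ρ h u) = ρ h (ρ g u) := fun g hg hgy h hh u hu => hZ g hg hgy h hh u (hW₂le hu)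
  have hF := hF_of_hZ hpq ρ Q₂ hQ₂ hW₂ ht htW₂ n hord hZ₂
  rcases critical_sub hq ρ Q₂ hQ₂ hW₂ ht htW₂ (n + 1) hord hF with ⟨u, hu, hne⟩ | h | ⟨h1, -⟩
  · exact absurd (hnil u (hW₂le hu)) hne
  · left
    -- one-dimensional
    have hNT : Nontrivial W₂ := Submodule.nontrivial_iff_ne_bot.mpr hW₂.ne_bot
    obtain ⟨v₀, hv₀⟩ := exists_ne (0 : W₂)
    have hgen := (finrank_eq_one_iff_of_nonzero' v₀ hv₀).mp h
    have hscal : ∀ g ∈ Q₂, ∃ μ : K, ∀ u ∈ W₂, ρ g u = μ • u := by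
      intro g hg
      obtain ⟨μ, hμ⟩ := hgen ⟨ρ g v₀, hW₂.inv g hg _ v₀.2⟩
      have hμ' : ρ g v₀ = μ • (v₀ : V) := (congrArg Subtype.val hμ).symm
      refine ⟨μ, fun u hu => ?_⟩
      obtain ⟨c, hc⟩ := hgen ⟨u, hu⟩
      have hc' : u = c • (v₀ : V) := (congrArg Subtype.val hc).symm
      rw [hc', map_smul, hμ', smul_comm]
    have hcW₂ : ∀ g ∈ Q₂, ∀ h ∈ Q₂, ∀ u ∈ W₂, ρ g (ρ h u) = ρ h (ρ g u) := by
      intro g hg h' hh u hu
      obtain ⟨μ, hμ⟩ := hscal g hg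
      obtain ⟨ν, hν⟩ := hscal h' hh
      rw [hν u hu, map_smul, hμ u hu, map_smul, hν u hu, smul_comm]
    obtain ⟨f, h0, h2, h3⟩ := hhom
    have hinj := hW₃.inj_of_hom h2 h3
    intro g hg h' hh u hu
    have h4 : ∀ w ∈ W₃, ρ (g * h') w = ρ (h' * g) w := by
      intro w hw
      have h5 : ρ (g * h') w - ρ (h' * g) w = 0 := by
        apply hinj _ (W₃.sub_mem (h33 _ (Q₂.mul_mem hg hh) _ hw) (h33 _ (Q₂.mul_mem hh hg) _ hw))
        rw [map_sub, h2 _ (Q₂.mul_mem hg hh) w hw, h2 _ (Q₂.mul_mem hh hg) w hw]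
        simp only [map_mul, Module.End.mul_apply]
        rw [hcW₂ g hg h' hh _ (h0 w hw), sub_self]
      exact sub_eq_zero.mp h5
    have h5 := htrans _ (Q₂.mul_mem hg hh) _ (Q₂.mul_mem hh hg) h4 u hu
    simpa only [map_mul, Module.End.mul_apply] using h5
  · right
    exact ⟨W₂, hW₂le, hW₂, htW₂, h1⟩

end dichotomy

end Cfsg.Agent.Lib.HHLen.Basic
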