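/-
Abelian sections with the induced action, as additive groups, and the algebra of the quadratic identity.
-/
import Mathlib

set_option autoImplicit false
set_option linter.style.haveILetI false

namespace Cfsg.Agent.Lib.HHLen.Section

universe w

/-- An abelian section `Q / N` with an action of `B` by conjugation. -/
theorem exists_section_ring {H : Type w} [Group H] (Q N B : Subgroup H) (hNQ : N ≤ Q)
    (hcomm : ∀ a ∈ Q, ∀ b ∈ Q, a * b * a⁻¹ * b⁻¹ ∈ N)
    (hBQ : ∀ b ∈ B, ∀ g ∈ Q, b * g * b⁻¹ ∈ Q) (hBN : ∀ b ∈ B, ∀ g ∈ N, b * g * b⁻¹ ∈ N) :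
    ∃ (E : Type w) (_ : AddCommGroup E) (π : Q → E) (act : B →* AddMonoid.End E),
      (∀ a b, π (a * b) = π a + π b) ∧ Function.Surjective π ∧ (∀ t : Q, π t = 0 ↔ t.1 ∈ N) ∧
      (∀ (b : B) (t t' : Q), t'.1 = b.1 * t.1 * b.1⁻¹ → act b (π t) = π t') := by
  classical
  let N' : Subgroup Q := N.subgroupOf Q
  haveI hN'n : N'.Normal := by
    constructor
    intro n hn g
    rw [Subgroup.mem_subgroupOf] at hn ⊢
    have h1 := hcomm g.1 g.2 n.1 n.2
    have h2 := N.mul_mem h1 hn
    have e : g.1 * n.1 * g.1⁻¹ * n.1⁻¹ * n.1 = g.1 * n.1 * g.1⁻¹ := by group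
    rw [e] at h2
    exact h2
  have hQc : ∀ a b : Q ⧸ N', a * b = b * a := by
    intro a b
    obtain ⟨a, rfl⟩ := QuotientGroup.mk_surjective a
    obtain ⟨b, rfl⟩ := QuotientGroup.mk_surjective b
    rw [← QuotientGroup.mk_mul, ← QuotientGroup.mk_mul, QuotientGroup.eq]
    rw [Subgroup.mem_subgroupOf]
    have e : (((a * b)⁻¹ * (b * a) : Q) : H) = b.1⁻¹ * a.1⁻¹ * b.1 * a.1 := by
      push_cast
      group
    rw [e]
    have h2 := hcomm b.1⁻¹ (Q.inv_mem b.2) a.1⁻¹ (Q.inv_mem a.2)
    simpa using h2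
  letI instC : CommGroup (Q ⧸ N') := { (inferInstance : Group (Q ⧸ N')) with mul_comm := hQc }
  let conjQ : B → Q →* Q := fun b =>
    { toFun := fun g => ⟨b.1 * g.1 * b.1⁻¹, hBQ b.1 b.2 g.1 g.2⟩
      map_one' := by
        apply Subtype.ext
        simp
      map_mul' := by
        intro x y
        apply Subtype.ext
        change b.1 * (x.1 * y.1) * b.1⁻¹ = b.1 * x.1 * b.1⁻¹ * (b.1 * y.1 * b.1⁻¹)
        group }
  have hconj : ∀ (b : B) (g : Q), ((conjQ b g : Q) : H) = b.1 * g.1 * b.1⁻¹ := fun _ _ => rfl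
  have hN' : ∀ b : B, N' ≤ N'.comap (conjQ b) := by
    intro b t ht
    rw [Subgroup.mem_comap, Subgroup.mem_subgroupOf]
    rw [hconj]
    exact hBN b.1 b.2 _ ht
  let act₀ : B → (Q ⧸ N') →* (Q ⧸ N') := fun b => QuotientGroup.map N' N' (conjQ b) (hN' b)
  have hact₀ : ∀ (b : B) (t : Q), act₀ b (t : Q ⧸ N') = ((conjQ b t : Q) : Q ⧸ N') := fun _ _ => rfl
  let act₁ : B → (Additive (Q ⧸ N') →+ Additive (Q ⧸ N')) := fun b => MonoidHom.toAdditive (act₀ b)
  have hact₁ : ∀ (b : B) (t : Q), act₁ b (Additive.ofMul (t : Q ⧸ N')) =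
      Additive.ofMul ((conjQ b t : Q) : Q ⧸ N') := fun _ _ => rfl
  let act : B →* AddMonoid.End (Additive (Q ⧸ N')) :=
    { toFun := act₁
      map_one' := by
        apply AddMonoidHom.ext
        intro a
        obtain ⟨a, rfl⟩ := QuotientGroup.mk_surjective (Additive.toMul a)
        change act₁ 1 (Additive.ofMul (a : Q ⧸ N')) = Additive.ofMul (a : Q ⧸ N')
        rw [hact₁]
        congr 2
        apply Subtype.ext
        simp [hconj]
      map_mul' := by
        intro b₁ b₂
        apply AddMonoidHom.ext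
        intro a
        obtain ⟨a, rfl⟩ := QuotientGroup.mk_surjective (Additive.toMul a)
        change act₁ (b₁ * b₂) (Additive.ofMul (a : Q ⧸ N')) =
          act₁ b₁ (act₁ b₂ (Additive.ofMul (a : Q ⧸ N')))
        rw [hact₁, hact₁, hact₁]
        congr 2
        apply Subtype.ext
        simp only [hconj]
        push_cast
        group }
  refine ⟨Additive (Q ⧸ N'), inferInstance, fun t => Additive.ofMul (t : Q ⧸ N'), act, ?_, ?_, ?_, ?_⟩
  · intro a b
    rfl
  · intro v
    obtain ⟨a, ha⟩ := QuotientGroup.mk_surjective (Additive.toMul v)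
    refine ⟨a, ?_⟩
    change Additive.ofMul (a : Q ⧸ N') = v
    rw [ha]
    rfl
  · intro t
    constructor
    · intro h
      have h4 : (t : Q ⧸ N') = 1 := h
      rwa [QuotientGroup.eq_one_iff, Subgroup.mem_subgroupOf] at h4
    · intro h
      have h4 : (t : Q ⧸ N') = 1 := by
        rwa [QuotientGroup.eq_one_iff, Subgroup.mem_subgroupOf]
      change Additive.ofMul (t : Q ⧸ N') = 0
      rw [h4]
      rfl
  · intro b t t' ht'
    have e : t' = conjQ b t := Subtype.ext (by rw [hconj, ht'])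
    rw [e]
    exact hact₁ b t

section algebra

variable {R : Type*} [Ring R]

/-- The key identity from three conjugate quadratic relations. -/
theorem alg_core {y τ ξ ξ' B B' : R} (hB : B * B' = 1) (hξ : ξ' * ξ = 1)
    (h0 : (y - 1) * (y - ξ) = 0) (hyτ : y * τ = τ * y) (hBτ : B * τ = τ * B)
    (hBy : B * y = y * τ * B) (hξy : ξ * y = y * ξ) (hξτ : ξ * τ = τ * ξ) (hξB : ξ * B = B * ξ) :
    (τ ^ 2 - 1) * (τ - 1) = 0 := by
  have hconj : ∀ a b : R, B * a = b * B → B * ((a - 1) * (a - ξ)) * B' = (b - 1) * (b - ξ) := by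
    intro a b hab
    have e1 : B * (a - 1) = (b - 1) * B := by
      rw [mul_sub, sub_mul, hab, mul_one, one_mul]
    have e2 : B * (a - ξ) = (b - ξ) * B := by
      rw [mul_sub, sub_mul, hab, hξB]
    calc B * ((a - 1) * (a - ξ)) * B' = (B * (a - 1)) * (a - ξ) * B' := by simp only [mul_assoc]
      _ = (b - 1) * (B * (a - ξ)) * B' := by rw [e1]; simp only [mul_assoc]
      _ = (b - 1) * (b - ξ) * (B * B') := by rw [e2]; simp only [mul_assoc]
      _ = _ := by rw [hB, mul_one]
  have h1 : (y * τ - 1) * (y * τ - ξ) = 0 := by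
    rw [← hconj y (y * τ) hBy, h0, mul_zero, zero_mul]
  have hBy2 : B * (y * τ) = y * τ ^ 2 * B := by
    calc B * (y * τ) = (B * y) * τ := by rw [mul_assoc]
      _ = y * τ * (B * τ) := by rw [hBy]; simp only [mul_assoc]
      _ = y * τ * (τ * B) := by rw [hBτ]
      _ = _ := by rw [pow_two]; simp only [mul_assoc]
  have h2 : (y * τ ^ 2 - 1) * (y * τ ^ 2 - ξ) = 0 := by
    rw [← hconj (y * τ) (y * τ ^ 2) hBy2, h1, mul_zero, zero_mul]
  -- pass to the commutative subring
  let S : Set R := {y, τ, ξ}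
  have hS : ∀ a ∈ S, ∀ b ∈ S, a * b = b * a := by
    intro a ha b hb
    simp only [S, Set.mem_insert_iff, Set.mem_singleton_iff] at ha hb
    rcases ha with rfl | rfl | rfl <;> rcases hb with rfl | rfl | rfl <;>
      first
        | rfl
        | assumption
        | exact (by assumption : _ = _).symm
  letI : CommRing (Subring.closure S) := Subring.closureCommRingOfComm hS
  let y' : Subring.closure S := ⟨y, Subring.subset_closure (by simp [S])⟩
  let τ' : Subring.closure S := ⟨τ, Subring.subset_closure (by simp [S])⟩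
  let ξ₀ : Subring.closure S := ⟨ξ, Subring.subset_closure (by simp [S])⟩
  have h0' : (y' - 1) * (y' - ξ₀) = 0 := Subtype.ext h0
  have h1' : (y' * τ' - 1) * (y' * τ' - ξ₀) = 0 := Subtype.ext h1
  have h2' : (y' * τ' ^ 2 - 1) * (y' * τ' ^ 2 - ξ₀) = 0 := Subtype.ext h2
  have key : ξ₀ * ((τ' ^ 2 - 1) * (τ' - 1)) = 0 := by
    linear_combination h2' - (τ' ^ 2 + τ') * h1' + τ' ^ 3 * h0'
  have key2 : ξ * ((τ ^ 2 - 1) * (τ - 1)) = 0 := congrArg Subtype.val key
  calc (τ ^ 2 - 1) * (τ - 1) = ξ' * ξ * ((τ ^ 2 - 1) * (τ - 1)) := by rw [hξ, one_mul]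
    _ = ξ' * (ξ * ((τ ^ 2 - 1) * (τ - 1))) := by rw [mul_assoc]
    _ = 0 := by rw [key2, mul_zero]

end algebra

section end_ring

variable {E : Type*} [AddCommGroup E]

theorem end_mul_apply (f g : AddMonoid.End E) (x : E) : (f * g) x = f (g x) := rfl

theorem end_sub_apply (f g : AddMonoid.End E) (x : E) : (f - g) x = f x - g x := rfl

theorem end_one_apply (x : E) : (1 : AddMonoid.End E) x = x := rfl

/-- An operator `τ` of odd prime order with `(τ² - 1)(τ - 1) = 0` on a group without `p`-torsion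
is trivial. -/
theorem eq_one_of_identity {p : ℕ} (hp2 : Odd p) (hE : ∀ w : E, p • w = 0 → w = 0)
    {τ : AddMonoid.End E} (hτ : τ ^ p = 1) (h : (τ ^ 2 - 1) * (τ - 1) = 0) : τ = 1 := by
  have hfix : ∀ w, (τ ^ 2 - 1 : AddMonoid.End E) w = 0 → τ w = w := by
    intro w hw
    have h2 : (τ ^ 2) w = w := by
      have : (τ ^ 2) w - w = 0 := hw
      exact sub_eq_zero.mp this
    obtain ⟨m, rfl⟩ := hp2
    have h3 : ∀ k : ℕ, (τ ^ (2 * k)) w = w := by
      intro k
      induction k with
      | zero => simp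
      | succ k ih =>
        rw [show 2 * (k + 1) = 2 * k + 2 by ring, pow_add, end_mul_apply, h2, ih]
    have h4 : τ ^ (2 * (m + 1)) = τ := by
      rw [show 2 * (m + 1) = (2 * m + 1) + 1 by ring, pow_succ, hτ, one_mul]
    have h5 := h3 (m + 1)
    rwa [h4] at h5
  have hsq : ∀ v, τ ((τ - 1) v) = (τ - 1) v := by
    intro v
    apply hfix
    have := congrArg (fun f : AddMonoid.End E => f v) h
    simpa using this
  -- `τ ^ j v = v + j (τ - 1) v`
  have hpow : ∀ (j : ℕ) (v : E), (τ ^ j) v = v + j • (τ - 1) v := by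
    intro j v
    induction j with
    | zero => simp
    | succ j ih =>
      rw [pow_succ', end_mul_apply, ih, map_add, map_nsmul, hsq v]
      have e : τ v = v + (τ - 1) v := by
        change τ v = v + (τ v - v)
        abel
      rw [e, succ_nsmul]
      abel
  apply AddMonoidHom.ext
  intro v
  have h1 := hpow p v
  rw [hτ] at h1
  have h2 : p • (τ - 1) v = 0 := by
    have h3 : v = v + p • (τ - 1) v := h1
    simpa using h3.symm
  have h3 := hE _ h2
  have h4 : τ v - v = 0 := h3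
  exact sub_eq_zero.mp h4

/-- The norm of a fixed-point-free operator of order dividing `p`. -/
theorem sum_eq_zero_of_fpf {p : ℕ} {a : AddMonoid.End E} (ha : a ^ p = 1) {S : AddSubgroup E}
    (hS : ∀ v ∈ S, a v ∈ S) (hfpf : ∀ v ∈ S, a v = v → v = 0) (v : E) (hv : v ∈ S) :
    ∑ i ∈ Finset.range p, (a ^ i) v = 0 := by
  have hpow : ∀ i : ℕ, (a ^ i) v ∈ S := by
    intro i
    induction i with
    | zero => simpa using hv
    | succ i ih =>
      rw [pow_succ', end_mul_apply]
      exact hS _ ih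
  apply hfpf _ (sum_mem (fun i _ => hpow i))
  rw [map_sum]
  have h1 : ∀ i, a ((a ^ i) v) = (a ^ (i + 1)) v := by
    intro i
    rw [pow_succ', end_mul_apply]
  simp only [h1]
  have h3 := Finset.sum_range_succ (fun i => (a ^ i) v) p
  have h4 := Finset.sum_range_succ' (fun i => (a ^ i) v) p
  rw [h3] at h4
  have h5 : (a ^ p) v = (a ^ 0) v := by
    rw [ha, pow_zero]
  rw [h5] at h4
  exact (add_right_cancel h4).symm

/-- The norm identity: two commuting operators `y`, `d` of order dividing the prime `p`, such that `y d ^ k`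
(`k < p`) and `d ^ i` (`0 < i < p`) are fixed point free on an invariant subgroup `S`: then `S` is `p`-torsion. -/
theorem norm_identity {p : ℕ} {y d : AddMonoid.End E} (hyd : y * d = d * y) (hy : y ^ p = 1) (hd : d ^ p = 1)
    {S : AddSubgroup E} (hSy : ∀ v ∈ S, y v ∈ S) (hSd : ∀ v ∈ S, d v ∈ S)
    (h1 : ∀ k < p, ∀ v ∈ S, (y * d ^ k) v = v → v = 0)
    (h2 : ∀ i, 0 < i → i < p → ∀ v ∈ S, (d ^ i) v = v → v = 0) (v : E) (hv : v ∈ S) : p • v = 0 := by
  have hdS : ∀ j : ℕ, ∀ v ∈ S, (d ^ j) v ∈ S := by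
    intro j
    induction j with
    | zero =>
      intro v hv
      simpa using hv
    | succ j ih =>
      intro v hv
      rw [pow_succ', end_mul_apply]
      exact hSd _ (ih v hv)
  have hc : Commute y d := hyd
  have hA : ∀ k < p, ∑ i ∈ Finset.range p, ((y * d ^ k) ^ i) v = 0 := by
    intro k _
    refine sum_eq_zero_of_fpf (a := y * d ^ k) ?_ (S := S) (fun w hw => ?_) (h1 k ‹_›) v hv
    · rw [(hc.pow_right k).mul_pow, hy, ← pow_mul, mul_comm, pow_mul, hd, one_pow, one_mul]
    · rw [end_mul_apply]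
      exact hSy _ (hdS k w hw)
  have hB : ∀ i, 0 < i → i < p → ∑ k ∈ Finset.range p, ((d ^ i) ^ k) v = 0 := by
    intro i hi hip
    refine sum_eq_zero_of_fpf (a := d ^ i) ?_ (S := S) (fun w hw => hdS i w hw) (h2 i hi hip) v hv
    rw [← pow_mul, mul_comm, pow_mul, hd, one_pow]
  have hsum : ∑ k ∈ Finset.range p, ∑ i ∈ Finset.range p, ((y * d ^ k) ^ i) v = 0 :=
    Finset.sum_eq_zero (fun k hk => hA k (Finset.mem_range.mp hk))
  rw [Finset.sum_comm] at hsum
  have hterm : ∀ i ∈ Finset.range p, ∑ k ∈ Finset.range p, ((y * d ^ k) ^ i) v =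
      if i = 0 then p • v else 0 := by
    intro i hi
    have hi' := Finset.mem_range.mp hi
    have e : ∀ k, ((y * d ^ k) ^ i) v = (y ^ i) (((d ^ i) ^ k) v) := by
      intro k
      rw [(hc.pow_right k).mul_pow, end_mul_apply, ← pow_mul, ← pow_mul, mul_comm k i]
    simp only [e]
    rw [← map_sum]
    by_cases h0 : i = 0
    · subst h0
      simp
    · rw [if_neg h0, hB i (Nat.pos_of_ne_zero h0) hi', map_zero]
  rw [Finset.sum_congr rfl hterm] at hsum
  by_cases hp0 : p = 0
  · subst hp0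
    simp
  · rw [Finset.sum_ite_eq' (Finset.range p) 0, if_pos (Finset.mem_range.mpr (Nat.pos_of_ne_zero hp0))] at hsum
    exact hsum

/-- A surjective additive image of a `q`-group has no `p`-torsion. -/
theorem no_torsion {Q : Type*} [Group Q] {p q : ℕ} (hpq : p ≠ q) (hp : p.Prime) (hq : q.Prime)
    (hQ : IsPGroup q Q) (π : Q → E) (hπadd : ∀ a b, π (a * b) = π a + π b)
    (hπsurj : Function.Surjective π) : ∀ w : E, p • w = 0 → w = 0 := by
  have hπ1 : π 1 = 0 := by
    have := hπadd 1 1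
    rw [mul_one] at this
    simpa using this
  have hπpow : ∀ (x : Q) (j : ℕ), π (x ^ j) = j • π x := by
    intro x j
    induction j with
    | zero => simp [hπ1]
    | succ j ih => rw [pow_succ, hπadd, ih, succ_nsmul]
  intro w hw
  obtain ⟨x, rfl⟩ := hπsurj w
  obtain ⟨m, hm⟩ := hQ x
  have h1 : (q ^ m) • π x = 0 := by
    rw [← hπpow, hm, hπ1]
  have h2 : addOrderOf (π x) ∣ p := addOrderOf_dvd_of_nsmul_eq_zero hw
  have h3 : addOrderOf (π x) ∣ q ^ m := addOrderOf_dvd_of_nsmul_eq_zero h1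
  have h4 : Nat.Coprime p (q ^ m) := Nat.Coprime.pow_right _ ((Nat.coprime_primes hp hq).mpr hpq)
  have h5 : addOrderOf (π x) = 1 := Nat.eq_one_of_dvd_coprimes h4 h2 h3
  exact AddMonoid.addOrderOf_eq_one_iff.mp h5

end end_ring

end Cfsg.Agent.Lib.HHLen.Section
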