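/-
The local analysis: a `p`-element `t` of order `P`, with `(t - 1) ^ (P - 1) = 0` on a `t`-invariant
irreducible module for a `q`-group `Q` of class two on the module.
-/
import Cfsg.Agent.Lib.HHLen.Basic
import Cfsg.Agent.Lib.HHLen.Section
import Cfsg.Agent.Lib.HallHigman.Extraspecial

set_option autoImplicit false
set_option linter.style.haveILetI false

namespace Cfsg.Agent.Lib.HHLen.Local

open Module Cfsg.Agent.Lib.HallHigman.Irr Cfsg.Agent.Lib.HallHigman.Core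
  Cfsg.Agent.Lib.HHLen.Basic Cfsg.Agent.Lib.Coprime.Action Cfsg.Agent.Lib.HHLen.Section
open scoped commutatorElement

universe u v w

section pres

variable {H : Type w} [Group H] {K : Type u} [Field K] {V : Type v} [AddCommGroup V] [Module K V]

/-- The elements normalizing `Q`, preserving the action on `U` of the elements central on `U`. -/
def Pres (ρ : H →* End K V) (Q : Subgroup H) (U : Submodule K V) (hU : IsInv ρ Q U) : Subgroup H where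
  carrier := {b | b ∈ Subgroup.normalizer (Q : Set H) ∧
    (∀ g ∈ Qs ρ Q U hU, b * g * b⁻¹ ∈ Qs ρ Q U hU ∧ ∀ u ∈ U, ρ (b * g * b⁻¹) u = ρ g u) ∧
    (∀ g ∈ Qs ρ Q U hU, b⁻¹ * g * b ∈ Qs ρ Q U hU ∧ ∀ u ∈ U, ρ (b⁻¹ * g * b) u = ρ g u)}
  mul_mem' := by
    rintro x y ⟨hx1, hx2, hx3⟩ ⟨hy1, hy2, hy3⟩
    refine ⟨Subgroup.mul_mem _ hx1 hy1, fun g hg => ?_, fun g hg => ?_⟩
    · have e : x * y * g * (x * y)⁻¹ = x * (y * g * y⁻¹) * x⁻¹ := by group
      rw [e]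
      obtain ⟨h1, h2⟩ := hy2 g hg
      obtain ⟨h3, h4⟩ := hx2 _ h1
      exact ⟨h3, fun u hu => by rw [h4 u hu, h2 u hu]⟩
    · have e : (x * y)⁻¹ * g * (x * y) = y⁻¹ * (x⁻¹ * g * x) * y := by group
      rw [e]
      obtain ⟨h1, h2⟩ := hx3 g hg
      obtain ⟨h3, h4⟩ := hy3 _ h1
      exact ⟨h3, fun u hu => by rw [h4 u hu, h2 u hu]⟩
  one_mem' := by
    refine ⟨Subgroup.one_mem _, fun g hg => ?_, fun g hg => ?_⟩ <;> simpa using hg
  inv_mem' := by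
    rintro x ⟨hx1, hx2, hx3⟩
    refine ⟨Subgroup.inv_mem _ hx1, fun g hg => ?_, fun g hg => ?_⟩
    · simpa using hx3 g hg
    · simpa using hx2 g hg

theorem mem_Pres {ρ : H →* End K V} {Q : Subgroup H} {U : Submodule K V} {hU : IsInv ρ Q U} {b : H} :
    b ∈ Pres ρ Q U hU ↔ b ∈ Subgroup.normalizer (Q : Set H) ∧
    (∀ g ∈ Qs ρ Q U hU, b * g * b⁻¹ ∈ Qs ρ Q U hU ∧ ∀ u ∈ U, ρ (b * g * b⁻¹) u = ρ g u) ∧
    (∀ g ∈ Qs ρ Q U hU, b⁻¹ * g * b ∈ Qs ρ Q U hU ∧ ∀ u ∈ U, ρ (b⁻¹ * g * b) u = ρ g u) := Iff.rfl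

/-- Irreducibles with a non-zero homomorphism: the elements of `Q` agree on both or neither. -/
theorem eq_on_iff_of_hom {ρ : H →* End K V} {Q : Subgroup H} {U U' : Submodule K V}
    (hU : IsIrr ρ Q U) (hU' : IsIrr ρ Q U') (h : HomNZ ρ Q U U') {a b : H} (ha : a ∈ Q) (hb : b ∈ Q) :
    (∀ u ∈ U, ρ a u = ρ b u) ↔ (∀ u ∈ U', ρ a u = ρ b u) := by
  obtain ⟨f, h0, h1, h2⟩ := h
  have hinj := hU.inj_of_hom h1 h2
  have hsurj := IsIrr.surj_of_hom hU.inv hU' h0 h1 h2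
  constructor
  · intro hab u' hu'
    rw [← hsurj] at hu'
    obtain ⟨u, hu, rfl⟩ := hu'
    rw [← h1 a ha u hu, ← h1 b hb u hu, hab u hu]
  · intro hab u hu
    have h3 : f (ρ a u - ρ b u) = 0 := by
      rw [map_sub, h1 a ha u hu, h1 b hb u hu, hab _ (h0 u hu), sub_self]
    exact sub_eq_zero.mp (hinj _ (U.sub_mem (hU.inv a ha u hu) (hU.inv b hb u hu)) h3)

theorem mem_Qs_iff_eq {ρ : H →* End K V} {Q : Subgroup H} {U : Submodule K V} {hU : IsInv ρ Q U} {g : H} :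
    g ∈ Qs ρ Q U hU ↔ g ∈ Q ∧ ∀ h ∈ Q, ∀ u ∈ U, ρ (g * h) u = ρ (h * g) u := by
  rw [mem_Qs]
  simp only [map_mul, Module.End.mul_apply]

theorem Qs_eq_of_hom {ρ : H →* End K V} {Q : Subgroup H} {U U' : Submodule K V}
    (hU : IsIrr ρ Q U) (hU' : IsIrr ρ Q U') (h : HomNZ ρ Q U U') :
    Qs ρ Q U hU.inv = Qs ρ Q U' hU'.inv := by
  ext g
  rw [mem_Qs_iff_eq, mem_Qs_iff_eq]
  refine and_congr_right (fun hg => forall₂_congr (fun x hx => ?_))
  exact eq_on_iff_of_hom hU hU' h (Q.mul_mem hg hx) (Q.mul_mem hx hg)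

theorem Pres_eq_of_hom {ρ : H →* End K V} {Q : Subgroup H} {U U' : Submodule K V}
    (hU : IsIrr ρ Q U) (hU' : IsIrr ρ Q U') (h : HomNZ ρ Q U U') :
    Pres ρ Q U hU.inv = Pres ρ Q U' hU'.inv := by
  ext b
  rw [mem_Pres, mem_Pres, Qs_eq_of_hom hU hU' h]
  refine and_congr_right (fun hb => and_congr ?_ ?_)
  · refine forall₂_congr (fun g hg => and_congr_right (fun h1 => ?_))
    exact eq_on_iff_of_hom hU hU' h (Qs_le h1) (Qs_le hg)
  · refine forall₂_congr (fun g hg => and_congr_right (fun h1 => ?_))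
    exact eq_on_iff_of_hom hU hU' h (Qs_le h1) (Qs_le hg)

variable [IsAlgClosed K] [FiniteDimensional K V]

/-- Schur's lemma for an element commuting with `Q` on `U`. -/
theorem exists_scalar {ρ : H →* End K V} {Q : Subgroup H} {U : Submodule K V} (hU : IsIrr ρ Q U) {g : H}
    (hgU : ∀ u ∈ U, ρ g u ∈ U) (hcomm : ∀ h ∈ Q, ∀ u ∈ U, ρ g (ρ h u) = ρ h (ρ g u)) :
    ∃ μ : K, ∀ u ∈ U, ρ g u = μ • u := by
  haveI : Nontrivial U := Submodule.nontrivial_iff_ne_bot.mpr hU.ne_bot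
  obtain ⟨μ, hμ⟩ := Cfsg.Agent.Lib.HallHigman.Extraspecial.schur (resQ ρ Q U hU.inv) (resQ_irr hU)
    ((ρ g).restrict hgU) (by
      intro x
      ext v
      exact hcomm x.1 x.2 v.1 v.2)
  refine ⟨μ, fun u hu => ?_⟩
  have h1 := LinearMap.congr_fun hμ ⟨u, hu⟩
  have h2 := congrArg Subtype.val h1
  simpa using h2

/-- An element stabilizing an irreducible (with its inverse) preserves the scalars. -/
theorem mem_Pres_of_stable {ρ : H →* End K V} {Q : Subgroup H} {U : Submodule K V} (hU : IsIrr ρ Q U) {b : H}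
    (hb : b ∈ Subgroup.normalizer (Q : Set H)) (hbU : ∀ u ∈ U, ρ b u ∈ U) (hbU' : ∀ u ∈ U, ρ b⁻¹ u ∈ U) :
    b ∈ Pres ρ Q U hU.inv := by
  have key : ∀ s : H, s ∈ Subgroup.normalizer (Q : Set H) → (∀ u ∈ U, ρ s u ∈ U) → (∀ u ∈ U, ρ s⁻¹ u ∈ U) →
      ∀ g ∈ Qs ρ Q U hU.inv, s * g * s⁻¹ ∈ Qs ρ Q U hU.inv ∧ ∀ u ∈ U, ρ (s * g * s⁻¹) u = ρ g u := by
    intro s hs hsU hsU' g hg
    refine ⟨conj_mem_Qs hs hsU hsU' hg, fun u hu => ?_⟩
    obtain ⟨μ, hμ⟩ := exists_scalar hU (hU.inv g (Qs_le hg)) (mem_Qs.mp hg).2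
    simp only [map_mul, Module.End.mul_apply]
    rw [hμ _ (hsU' u hu), map_smul, rho_apply_inv, hμ u hu]
  refine mem_Pres.mpr ⟨hb, key b hb hbU hbU', ?_⟩
  intro g hg
  have h1 := key b⁻¹ (Subgroup.inv_mem _ hb) hbU' (by simpa using hbU) g hg
  simpa using h1

/-- The commutator map is bilinear and invariant: elements of `Q` commuting with `b` commute on `U`
with `[b, Q]`. -/
theorem comm_of_pres {ρ : H →* End K V} {Q : Subgroup H} {U : Submodule K V} (hU : IsIrr ρ Q U)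
    (hc2 : ∀ g ∈ Q, ∀ h ∈ Q, g * h * g⁻¹ * h⁻¹ ∈ Qs ρ Q U hU.inv) {b : H} (hb : b ∈ Pres ρ Q U hU.inv)
    {g : H} (hgQ : g ∈ Q) (hgb : g * b = b * g) {x : H} (hx : x ∈ Q) :
    ∀ u ∈ U, ρ g (ρ (b * x * b⁻¹ * x⁻¹) u) = ρ (b * x * b⁻¹ * x⁻¹) (ρ g u) := by
  obtain ⟨hbN, hb2, -⟩ := mem_Pres.mp hb
  set a := g * x * g⁻¹ * x⁻¹ with ha
  have haQs := hc2 g hgQ x hx
  obtain ⟨μ, hμ⟩ := exists_scalar hU (hU.inv a (Qs_le haQs)) (mem_Qs.mp haQs).2
  have hx' : b * x * b⁻¹ ∈ Q := conj_mem_of_mem_normalizer hbN hx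
  have e1 : g * (b * x * b⁻¹) * g⁻¹ * (b * x * b⁻¹)⁻¹ = b * a * b⁻¹ := by
    have h1 : g⁻¹ * b = b * g⁻¹ := by
      calc g⁻¹ * b = g⁻¹ * (b * g) * g⁻¹ := by group
        _ = g⁻¹ * (g * b) * g⁻¹ := by rw [hgb]
        _ = b * g⁻¹ := by group
    calc g * (b * x * b⁻¹) * g⁻¹ * (b * x * b⁻¹)⁻¹
        = (g * b) * x * b⁻¹ * g⁻¹ * (b * x⁻¹ * b⁻¹) := by group
      _ = (b * g) * x * b⁻¹ * g⁻¹ * (b * x⁻¹ * b⁻¹) := by rw [hgb]
      _ = b * g * x * b⁻¹ * (g⁻¹ * b) * x⁻¹ * b⁻¹ := by group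
      _ = b * g * x * b⁻¹ * (b * g⁻¹) * x⁻¹ * b⁻¹ := by rw [h1]
      _ = b * a * b⁻¹ := by rw [ha]; group
  have hμ' : ∀ u ∈ U, ρ (g * (b * x * b⁻¹) * g⁻¹ * (b * x * b⁻¹)⁻¹) u = μ • u := by
    intro u hu
    rw [e1, (hb2 a haQs).2 u hu, hμ u hu]
  have key : ∀ z : H, z ∈ Q → (∀ u ∈ U, ρ (g * z * g⁻¹ * z⁻¹) u = μ • u) →
      ∀ v ∈ U, ρ g (ρ z v) = μ • ρ z (ρ g v) := by
    intro z hz hz' v hv
    have hmem : ρ z (ρ g v) ∈ U := hU.inv z hz _ (hU.inv g hgQ v hv)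
    have h2 := hz' _ hmem
    rw [← h2]
    simp only [map_mul, Module.End.mul_apply, rho_inv_apply]
  intro u hu
  have h1 := key x hx hμ
  have h2 := key _ hx' hμ'
  have hu' : ρ x⁻¹ u ∈ U := hU.inv _ (Q.inv_mem hx) u hu
  have h3 : ρ x⁻¹ (ρ g u) = μ • ρ g (ρ x⁻¹ u) := by
    have h4 := h1 _ hu'
    rw [rho_apply_inv] at h4
    rw [h4, map_smul, rho_inv_apply]
  have e : ρ (b * x * b⁻¹ * x⁻¹) = ρ (b * x * b⁻¹) * ρ x⁻¹ := map_mul _ _ _
  rw [e, Module.End.mul_apply, Module.End.mul_apply, h2 _ hu', h3, map_smul]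

/-- Elements of `Q` commuting with `b` commute on `U` with `[Q, ⟨b⟩]`. -/
theorem comm_on_commutator {ρ : H →* End K V} {Q : Subgroup H} {U : Submodule K V} (hU : IsIrr ρ Q U)
    (hc2 : ∀ g ∈ Q, ∀ h ∈ Q, g * h * g⁻¹ * h⁻¹ ∈ Qs ρ Q U hU.inv) {b : H} (hb : b ∈ Pres ρ Q U hU.inv)
    {g : H} (hgQ : g ∈ Q) (hgb : g * b = b * g) {m : H} (hm : m ∈ ⁅Q, Subgroup.zpowers b⁆) :
    ∀ u ∈ U, ρ g (ρ m u) = ρ m (ρ g u) := by
  let Cg : Subgroup H :=
    { carrier := {m | m ∈ Q ∧ ∀ u ∈ U, ρ g (ρ m u) = ρ m (ρ g u)}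
      mul_mem' := by
        rintro m₁ m₂ ⟨h1, h2⟩ ⟨h3, h4⟩
        refine ⟨Q.mul_mem h1 h3, fun u hu => ?_⟩
        simp only [map_mul, Module.End.mul_apply]
        rw [h2 _ (hU.inv m₂ h3 u hu), h4 u hu]
      one_mem' := by
        refine ⟨Q.one_mem, fun u _ => ?_⟩
        simp
      inv_mem' := by
        rintro m₁ ⟨h1, h2⟩
        refine ⟨Q.inv_mem h1, fun u hu => ?_⟩
        have h3 := h2 _ (hU.inv _ (Q.inv_mem h1) u hu)
        rw [rho_apply_inv] at h3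
        rw [h3, rho_inv_apply] }
  have hzb : Subgroup.zpowers b ≤ Pres ρ Q U hU.inv := Subgroup.zpowers_le.mpr hb
  have hle : ⁅Q, Subgroup.zpowers b⁆ ≤ Cg := by
    rw [Subgroup.commutator_le]
    intro h hh z hz
    have hzP := hzb hz
    have hzN : z ∈ Subgroup.normalizer (Q : Set H) := (mem_Pres.mp hzP).1
    have hgz : g * z = z * g := by
      obtain ⟨k, rfl⟩ := Subgroup.mem_zpowers_iff.mp hz
      have h1 : Commute g b := hgb
      exact (h1.zpow_right k).eq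
    have h1 := comm_of_pres hU hc2 hzP hgQ hgz hh
    have hw : z * h * z⁻¹ * h⁻¹ ∈ Cg :=
      ⟨Q.mul_mem (conj_mem_of_mem_normalizer hzN hh) (Q.inv_mem hh), h1⟩
    have e : ⁅h, z⁆ = (z * h * z⁻¹ * h⁻¹)⁻¹ := by
      rw [commutatorElement_def]
      group
    rw [e]
    exact Cg.inv_mem hw
  exact (hle hm).2

end pres

section local_data

variable {H : Type w} [Group H] {K : Type u} [Field K] {V : Type v} [AddCommGroup V] [Module K V]
  {p : ℕ} [hp : Fact p.Prime]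

omit hp in
theorem mem_normalizer_zpowers_of_comm {t y : H} (h : t * y = y * t) :
    t ∈ Subgroup.normalizer (Subgroup.zpowers y : Set H) := by
  rw [Subgroup.mem_normalizer_iff]
  have hc : Commute t y := h
  intro z
  constructor
  · intro hz
    obtain ⟨k, rfl⟩ := Subgroup.mem_zpowers_iff.mp hz
    rw [(hc.zpow_right k).eq, mul_inv_cancel_right]
    exact hz
  · intro hz
    obtain ⟨k, hk⟩ := Subgroup.mem_zpowers_iff.mp hz
    have e : z = y ^ k := by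
      have h6 : t * y ^ k = y ^ k * t := (hc.zpow_right k).eq
      calc z = t⁻¹ * (t * z * t⁻¹) * t := by group
        _ = t⁻¹ * y ^ k * t := by rw [← hk]
        _ = t⁻¹ * (y ^ k * t) := by group
        _ = t⁻¹ * (t * y ^ k) := by rw [h6]
        _ = y ^ k := by group
    rw [e]
    exact Subgroup.zpow_mem _ (Subgroup.mem_zpowers y) k

theorem coprime_zpowers {q : ℕ} [Fact q.Prime] (hpq : p ≠ q) {a : H} (ha : a ^ p = 1) {Q : Subgroup H}
    (hQ : IsPGroup q Q) [Finite Q] : (Nat.card (Subgroup.zpowers a)).Coprime (Nat.card Q) := by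
  obtain ⟨m, hm⟩ := IsPGroup.iff_card.mp hQ
  rw [hm, Nat.card_zpowers]
  apply Nat.Coprime.pow_right
  exact Nat.Coprime.coprime_dvd_left (orderOf_dvd_of_pow_eq_one ha)
    ((Nat.coprime_primes hp.out Fact.out).mpr hpq)

/-- The decomposition `Q = C_Q(a) [Q, a]`. -/
theorem exists_dec [Finite H] {q : ℕ} [Fact q.Prime] (hpq : p ≠ q) {a : H} (ha : a ^ p = 1) {Q : Subgroup H}
    (hQ : IsPGroup q Q) (haQ : a ∈ Subgroup.normalizer (Q : Set H)) :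
    ∀ g ∈ Q, ∃ c ∈ Q ⊓ Subgroup.centralizer (Subgroup.zpowers a : Set H),
      ∃ m ∈ ⁅Q, Subgroup.zpowers a⁆, g = c * m := by
  intro g hg
  have hAQ : Subgroup.zpowers a ≤ Subgroup.normalizer (Q : Set H) := Subgroup.zpowers_le.mpr haQ
  have hsup := commutator_sup_fixed hAQ (coprime_zpowers hpq ha hQ) (Or.inl inferInstance)
  have hn : Q ⊓ Subgroup.centralizer (Subgroup.zpowers a : Set H) ≤
      Subgroup.normalizer (((⁅Q, Subgroup.zpowers a⁆ : Subgroup H)) : Set H) :=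
    inf_le_left.trans (le_normalizer_commutator_left Q _)
  have hg' : g⁻¹ ∈ ⁅Q, Subgroup.zpowers a⁆ ⊔ (Q ⊓ Subgroup.centralizer (Subgroup.zpowers a : Set H)) := by
    rw [hsup]
    exact Q.inv_mem hg
  obtain ⟨m, hm, c, hc, hmc⟩ := exists_mul_of_mem_sup hn hg'
  refine ⟨c⁻¹, Subgroup.inv_mem _ hc, m⁻¹, Subgroup.inv_mem _ hm, ?_⟩
  have : g = (g⁻¹)⁻¹ := by group
  rw [this, hmc]
  group

/-- Fixed points modulo an invariant subgroup lift, if the fixed points of `a` are in it. -/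
theorem lift_fixed [Finite H] {q : ℕ} [Fact q.Prime] (hpq : p ≠ q) (Q₀ : Subgroup H) (hQ₀q : IsPGroup q Q₀)
    (Z : Subgroup H) {a : H} (haQ₀ : a ∈ Subgroup.normalizer (Q₀ : Set H)) (hap : a ^ p = 1)
    (haZ : ∀ x ∈ Z, a * x * a⁻¹ ∈ Z) (haZ' : ∀ x ∈ Z, a⁻¹ * x * a ∈ Z)
    (hQZ : ∀ b ∈ Q₀, ∀ x ∈ Z, b * x * b⁻¹ ∈ Z)
    (hB : ∀ g ∈ Q₀, g * a = a * g → g ∈ Z) {g : H} (hg : g ∈ Q₀) (h : a * g * a⁻¹ * g⁻¹ ∈ Z) :
    g ∈ Z := by
  let N : Subgroup H := Z ⊓ Q₀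
  have hconjN : ∀ b : H, b ∈ Subgroup.normalizer (Q₀ : Set H) → (∀ x ∈ Z, b * x * b⁻¹ ∈ Z) →
      ∀ x ∈ N, b * x * b⁻¹ ∈ N := fun b hb hbZ x hx =>
    ⟨hbZ x hx.1, conj_mem_of_mem_normalizer hb hx.2⟩
  have hnormN : ∀ b : H, b ∈ Subgroup.normalizer (Q₀ : Set H) → (∀ x ∈ Z, b * x * b⁻¹ ∈ Z) →
      (∀ x ∈ Z, b⁻¹ * x * b ∈ Z) → b ∈ Subgroup.normalizer (N : Set H) := by
    intro b hb h1 h2
    rw [Subgroup.mem_normalizer_iff]
    intro x
    refine ⟨hconjN b hb h1 x, fun hx => ?_⟩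
    have := hconjN b⁻¹ (Subgroup.inv_mem _ hb) (by simpa using h2) _ hx
    simpa [mul_assoc] using this
  have hAN : Subgroup.zpowers a ≤ Subgroup.normalizer (N : Set H) := by
    rw [Subgroup.zpowers_le]
    exact hnormN a haQ₀ haZ haZ'
  have hKN : Q₀ ≤ Subgroup.normalizer (N : Set H) := by
    intro b hb
    refine hnormN b (Subgroup.le_normalizer hb) (fun x hx => hQZ b hb x hx) (fun x hx => ?_)
    have := hQZ b⁻¹ (Q₀.inv_mem hb) x hx
    simpa using this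
  have haQ₀' : Subgroup.zpowers a ≤ Subgroup.normalizer (Q₀ : Set H) := Subgroup.zpowers_le.mpr haQ₀
  have hgmem : a * g * a⁻¹ * g⁻¹ ∈ N :=
    ⟨h, Q₀.mul_mem (conj_mem_of_mem_normalizer haQ₀ hg) (Q₀.inv_mem hg)⟩
  have hfix0 : ∀ j : ℕ, a ^ j * g * (a ^ j)⁻¹ * g⁻¹ ∈ N := by
    intro j
    induction j with
    | zero =>
      have : a ^ 0 * g * (a ^ 0)⁻¹ * g⁻¹ = 1 := by simp
      rw [this]
      exact N.one_mem
    | succ j ih =>
      have h1 := hconjN a haQ₀ haZ _ ih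
      have h2 := N.mul_mem h1 hgmem
      convert h2 using 1
      rw [pow_succ']
      group
  have hfix : ∀ z ∈ Subgroup.zpowers a, z * g * z⁻¹ * g⁻¹ ∈ N := by
    intro z hz
    obtain ⟨j, rfl⟩ := (isOfFinOrder_of_finite a).mem_powers_iff_mem_zpowers.mpr hz
    exact hfix0 j
  obtain ⟨c', hc', hgc'⟩ := exists_fixed_of_fixed_mod N haQ₀' (coprime_zpowers hpq hap hQ₀q)
    (Or.inl inferInstance) inf_le_right hKN hAN hg hfix
  have hc'a : c' * a = a * c' := by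
    have := Subgroup.mem_centralizer_iff.mp hc'.2 a (Subgroup.mem_zpowers a)
    exact this.symm
  have hc'Z := hB c' hc'.1 hc'a
  have e : g = c' * (g⁻¹ * c')⁻¹ := by group
  rw [e]
  exact Z.mul_mem hc'Z (Z.inv_mem hgc'.1)

/-- The data of the local analysis. -/
structure LocalData (ρ : H →* End K V) (Q : Subgroup H) (U : Submodule K V) (t : H) (n q : ℕ) : Prop where
  hpq : p ≠ q
  hq : (q : K) ≠ 0
  hQ : IsPGroup q Q
  hU : IsIrr ρ Q U
  ht : t ∈ Subgroup.normalizer (Q : Set H)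
  htU : ∀ u ∈ U, ρ t u ∈ U
  hord : orderOf t = p ^ (n + 1)
  hnil : ∀ u ∈ U, ((ρ t - 1) ^ (p ^ (n + 1) - 1)) u = 0
  hc2 : ∀ g ∈ Q, ∀ h ∈ Q, g * h * g⁻¹ * h⁻¹ ∈ Qs ρ Q U hU.inv

namespace LocalData

variable {ρ : H →* End K V} {Q : Subgroup H} {U : Submodule K V} {t : H} {n q : ℕ}

theorem y_pow (D : LocalData (p := p) ρ Q U t n q) : (t ^ p ^ n) ^ p = 1 := by
  rw [← pow_mul, ← pow_succ, ← D.hord, pow_orderOf_eq_one]

theorem zpowers_stable [Finite H] (D : LocalData (p := p) ρ Q U t n q) :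
    ∀ c ∈ Subgroup.zpowers t, ∀ u ∈ U, ρ c u ∈ U := by
  have htpow : ∀ j : ℕ, ∀ u ∈ U, ρ (t ^ j) u ∈ U := by
    intro j
    induction j with
    | zero =>
      intro u hu
      simpa using hu
    | succ j ih =>
      intro u hu
      rw [pow_succ', map_mul, Module.End.mul_apply]
      exact D.htU _ (ih u hu)
  intro c hc u hu
  obtain ⟨j, rfl⟩ := (isOfFinOrder_of_finite t).mem_powers_iff_mem_zpowers.mpr hc
  exact htpow j u hu

variable [IsAlgClosed K] [FiniteDimensional K V]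

theorem y_pres [Finite H] (D : LocalData (p := p) ρ Q U t n q) : t ^ p ^ n ∈ Pres ρ Q U D.hU.inv := by
  have hy : t ^ p ^ n ∈ Subgroup.zpowers t := Subgroup.pow_mem _ (Subgroup.mem_zpowers t) _
  exact mem_Pres_of_stable D.hU (Subgroup.pow_mem _ D.ht _) (D.zpowers_stable _ hy)
    (D.zpowers_stable _ (Subgroup.inv_mem _ hy))

theorem t_normalizes [Finite H] (D : LocalData (p := p) ρ Q U t n q) :
    t ∈ Subgroup.normalizer ((⁅Q, Subgroup.zpowers (t ^ p ^ n)⁆ : Subgroup H) : Set H) := by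
  have hT : Subgroup.zpowers t ≤ Subgroup.normalizer ((⁅Q, Subgroup.zpowers (t ^ p ^ n)⁆ : Subgroup H) : Set H) :=
    le_normalizer_commutator_of_le (Subgroup.zpowers_le.mpr D.ht) (Subgroup.zpowers_le.mpr
      (mem_normalizer_zpowers_of_comm ((Commute.refl t).pow_right _).eq))
  exact hT (Subgroup.mem_zpowers t)

variable [CharP K p]

/-- The first level of the dichotomy. -/
theorem level_one [Finite H] {q : ℕ} [Fact q.Prime] (D : LocalData (p := p) ρ Q U t n q) :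
    (⁅Q, Subgroup.zpowers (t ^ p ^ n)⁆ ≤ Qs ρ Q U D.hU.inv) ∨
    ∃ U₁, U₁ ≤ U ∧ IsIrr ρ ⁅Q, Subgroup.zpowers (t ^ p ^ n)⁆ U₁ ∧ (∀ u ∈ U₁, ρ t u ∈ U₁) ∧
      finrank K U₁ + 1 = p ^ (n + 1) := by
  set y := t ^ p ^ n with hy
  have hyQ : y ∈ Subgroup.normalizer (Q : Set H) := Subgroup.pow_mem _ D.ht _
  have hAQ : Subgroup.zpowers y ≤ Subgroup.normalizer (Q : Set H) := Subgroup.zpowers_le.mpr hyQ
  set Q₀ := ⁅Q, Subgroup.zpowers y⁆ with hQ₀
  have hQ₀le : Q₀ ≤ Q := commutator_le_of_le_normalizer hAQ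
  have hcomm : ∀ c ∈ Q ⊓ Subgroup.centralizer (Subgroup.zpowers y : Set H), ∀ m ∈ Q₀, ∀ u ∈ U,
      ρ c (ρ m u) = ρ m (ρ c u) := by
    intro c hc m hm
    refine comm_on_commutator D.hU D.hc2 D.y_pres hc.1 ?_ hm
    have := Subgroup.mem_centralizer_iff.mp hc.2 y (Subgroup.mem_zpowers y)
    exact this.symm
  rcases dichotomy D.hq D.hpq ρ Q Q₀ (Q ⊓ Subgroup.centralizer (Subgroup.zpowers y : Set H)) D.hQ hQ₀le inf_le_left
    (inf_le_left.trans (le_normalizer_commutator_left Q _)) (exists_dec D.hpq D.y_pow D.hQ hyQ) D.hU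
    D.t_normalizes D.htU n D.hord hcomm
    (fun g hg hgy h hh u hu => comm_on_commutator D.hU D.hc2 D.y_pres (hQ₀le hg) hgy hh u hu) D.hnil with h | h
  · left
    intro g hg
    refine mem_Qs.mpr ⟨hQ₀le hg, fun x hx u hu => ?_⟩
    obtain ⟨c, hc, m, hm, rfl⟩ := exists_dec D.hpq D.y_pow D.hQ hyQ x hx
    simp only [map_mul, Module.End.mul_apply]
    rw [← hcomm c hc g hg _ (D.hU.inv m (hQ₀le hm) u hu), h g hg m hm u hu, hcomm c hc m hm _ (D.hU.inv g (hQ₀le hg) u hu)]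
  · right
    exact h

/-- Elements central on `U₁` for `[Q, y]` are central on `U` for `Q`. -/
theorem Qs_level_le [Finite H] {q : ℕ} [Fact q.Prime] (D : LocalData (p := p) ρ Q U t n q)
    {U₁ : Submodule K V} (hU₁le : U₁ ≤ U) (hU₁ : IsIrr ρ ⁅Q, Subgroup.zpowers (t ^ p ^ n)⁆ U₁) :
    Qs ρ ⁅Q, Subgroup.zpowers (t ^ p ^ n)⁆ U₁ hU₁.inv ≤ Qs ρ Q U D.hU.inv := by
  set y := t ^ p ^ n with hy
  have hyQ : y ∈ Subgroup.normalizer (Q : Set H) := Subgroup.pow_mem _ D.ht _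
  have hAQ : Subgroup.zpowers y ≤ Subgroup.normalizer (Q : Set H) := Subgroup.zpowers_le.mpr hyQ
  set Q₀ := ⁅Q, Subgroup.zpowers y⁆ with hQ₀
  have hQ₀le : Q₀ ≤ Q := commutator_le_of_le_normalizer hAQ
  intro g hg
  obtain ⟨hg1, hg2⟩ := mem_Qs.mp hg
  have hgQ := hQ₀le hg1
  refine mem_Qs.mpr ⟨hgQ, fun x hx u hu => ?_⟩
  obtain ⟨c, hc, m, hm, rfl⟩ := exists_dec D.hpq D.y_pow D.hQ hyQ x hx
  have hmQ := hQ₀le hm
  have hcy : c * y = y * c := by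
    have := Subgroup.mem_centralizer_iff.mp hc.2 y (Subgroup.mem_zpowers y)
    exact this.symm
  have h1 := comm_on_commutator D.hU D.hc2 D.y_pres hc.1 hcy hg1
  -- `g` and `m` commute on `U`
  have hgm : ∀ v ∈ U, ρ g (ρ m v) = ρ m (ρ g v) := by
    set a := g * m * g⁻¹ * m⁻¹ with ha
    have haQs := D.hc2 g hgQ m hmQ
    obtain ⟨μ, hμ⟩ := exists_scalar D.hU (D.hU.inv a (Qs_le haQs)) (mem_Qs.mp haQs).2
    obtain ⟨w, hw, hw0⟩ := Submodule.exists_mem_ne_zero_of_ne_bot hU₁.ne_bot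
    have hμ1 : μ = 1 := by
      have h2 : ρ a w = w := by
        have h3 := hg2 m hm _ (hU₁.inv _ (Q₀.inv_mem hg1) _ (hU₁.inv _ (Q₀.inv_mem hm) w hw))
        rw [ha]
        simp only [map_mul, Module.End.mul_apply]
        rw [h3, rho_apply_inv, rho_apply_inv]
      have h3 := hμ w (hU₁le hw)
      rw [h2] at h3
      have h4 : (μ - 1) • w = 0 := by
        rw [sub_smul, one_smul, ← h3, sub_self]
      exact sub_eq_zero.mp ((smul_eq_zero.mp h4).resolve_right hw0)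
    intro v hv
    have h5 := hμ _ (D.hU.inv m hmQ _ (D.hU.inv g hgQ v hv))
    rw [hμ1, one_smul, ha] at h5
    simp only [map_mul, Module.End.mul_apply, rho_inv_apply] at h5
    exact h5
  simp only [map_mul, Module.End.mul_apply]
  rw [← h1 _ (D.hU.inv m hmQ u hu), hgm u hu]

/-- The second level of the dichotomy. -/
theorem level_two [Finite H] {q : ℕ} [Fact q.Prime] (D : LocalData (p := p) ρ Q U t n q)
    {U₁ : Submodule K V} (hU₁le : U₁ ≤ U) (hU₁ : IsIrr ρ ⁅Q, Subgroup.zpowers (t ^ p ^ n)⁆ U₁)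
    (htU₁ : ∀ u ∈ U₁, ρ t u ∈ U₁) (hdim : finrank K U₁ + 1 = p ^ (n + 1))
    {a : H} (ha : a ∈ Pres ρ Q U D.hU.inv)
    (haQ₀ : a ∈ Subgroup.normalizer ((⁅Q, Subgroup.zpowers (t ^ p ^ n)⁆ : Subgroup H) : Set H))
    (hat : a * t = t * a) (hap : a ^ p = 1) :
    (∀ g ∈ ⁅Q, Subgroup.zpowers (t ^ p ^ n)⁆, a * g * a⁻¹ * g⁻¹ ∈ Qs ρ Q U D.hU.inv) ∨
    (∀ g ∈ ⁅Q, Subgroup.zpowers (t ^ p ^ n)⁆, g * a = a * g → g ∈ Qs ρ Q U D.hU.inv) := by
  have hX := D.Qs_level_le hU₁le hU₁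
  set y := t ^ p ^ n with hy
  have hyQ : y ∈ Subgroup.normalizer (Q : Set H) := Subgroup.pow_mem _ D.ht _
  have hAQ : Subgroup.zpowers y ≤ Subgroup.normalizer (Q : Set H) := Subgroup.zpowers_le.mpr hyQ
  set Q₀ := ⁅Q, Subgroup.zpowers y⁆ with hQ₀
  have hQ₀le : Q₀ ≤ Q := commutator_le_of_le_normalizer hAQ
  have hQ₀q : IsPGroup q Q₀ := D.hQ.to_le hQ₀le
  have haQ : Subgroup.zpowers a ≤ Subgroup.normalizer (Q₀ : Set H) := Subgroup.zpowers_le.mpr haQ₀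
  set Q₂ := ⁅Q₀, Subgroup.zpowers a⁆ with hQ₂
  have hQ₂le : Q₂ ≤ Q₀ := commutator_le_of_le_normalizer haQ
  have hQ₂Q : Q₂ ≤ ⁅Q, Subgroup.zpowers a⁆ := Subgroup.commutator_mono hQ₀le le_rfl
  let C₁ := Q₀ ⊓ Subgroup.centralizer (Subgroup.zpowers a : Set H)
  have hcomm : ∀ c ∈ C₁, ∀ m ∈ Q₂, ∀ u ∈ U, ρ c (ρ m u) = ρ m (ρ c u) := by
    intro c hc m hm
    refine comm_on_commutator D.hU D.hc2 ha (hQ₀le hc.1) ?_ (hQ₂Q hm)
    have := Subgroup.mem_centralizer_iff.mp hc.2 a (Subgroup.mem_zpowers a)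
    exact this.symm
  have hdec := exists_dec D.hpq hap hQ₀q haQ₀
  have ht₂ : t ∈ Subgroup.normalizer ((Q₂ : Subgroup H) : Set H) := by
    have hT : Subgroup.zpowers t ≤ Subgroup.normalizer ((Q₂ : Subgroup H) : Set H) :=
      le_normalizer_commutator_of_le (Subgroup.zpowers_le.mpr D.t_normalizes) (Subgroup.zpowers_le.mpr
        (mem_normalizer_zpowers_of_comm hat.symm))
    exact hT (Subgroup.mem_zpowers t)
  rcases dichotomy D.hq D.hpq ρ Q₀ Q₂ C₁ hQ₀q hQ₂le inf_le_left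
    (inf_le_left.trans (le_normalizer_commutator_left Q₀ _)) hdec hU₁ ht₂ htU₁ n D.hord
    (fun c hc m hm u hu => hcomm c hc m hm u (hU₁le hu))
    (fun g hg hgy h hh u hu => comm_on_commutator D.hU D.hc2 D.y_pres (hQ₀le (hQ₂le hg)) hgy (hQ₂le hh) u (hU₁le hu))
    (fun u hu => D.hnil u (hU₁le hu)) with h | ⟨W₂, hW₂le, hW₂, -, hW₂dim⟩
  · left
    intro g hg
    apply hX
    have hmem : a * g * a⁻¹ * g⁻¹ ∈ Q₂ := by
      have e : a * g * a⁻¹ * g⁻¹ = ⁅g, a⁆⁻¹ := by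
        rw [commutatorElement_def]
        group
      rw [e]
      exact Subgroup.inv_mem _ (Subgroup.commutator_mem_commutator hg (Subgroup.mem_zpowers a))
    refine mem_Qs.mpr ⟨hQ₂le hmem, fun x hx u hu => ?_⟩
    obtain ⟨c, hc, m, hm, rfl⟩ := hdec x hx
    have hmU : ρ m u ∈ U₁ := hU₁.inv m (hQ₂le hm) u hu
    have e : ∀ v, ρ (c * m) v = ρ c (ρ m v) := fun v => by
      rw [map_mul]
      rfl
    rw [e, e, ← hcomm c hc _ hmem _ (hU₁le hmU), h _ hmem m hm u hu]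
  · right
    have hW₂eq : W₂ = U₁ := Submodule.eq_of_le_of_finrank_eq hW₂le (by omega)
    subst hW₂eq
    intro g hg hga
    apply hX
    have hgC : g ∈ C₁ := by
      refine Subgroup.mem_inf.mpr ⟨hg, Subgroup.mem_centralizer_iff.mpr ?_⟩
      intro z hz
      obtain ⟨k, rfl⟩ := Subgroup.mem_zpowers_iff.mp hz
      have h1 : Commute g a := hga
      exact (h1.zpow_right k).eq.symm
    obtain ⟨μ, hμ⟩ := exists_scalar hW₂ (hU₁.inv g hg) (fun m hm u hu => hcomm g hgC m hm u (hU₁le hu))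
    refine mem_Qs.mpr ⟨hg, fun x hx u hu => ?_⟩
    rw [hμ _ (hU₁.inv x hx u hu), hμ u hu, map_smul]

/-- Fixed points modulo `Qs` lift, if the fixed points of `a` on `Q₀` are in `Qs`. -/
theorem fixed_mod_lift [Finite H] {q : ℕ} [Fact q.Prime] (D : LocalData (p := p) ρ Q U t n q)
    {a : H} (ha : a ∈ Pres ρ Q U D.hU.inv)
    (haQ₀ : a ∈ Subgroup.normalizer ((⁅Q, Subgroup.zpowers (t ^ p ^ n)⁆ : Subgroup H) : Set H))
    (hap : a ^ p = 1)
    (hB : ∀ g ∈ ⁅Q, Subgroup.zpowers (t ^ p ^ n)⁆, g * a = a * g → g ∈ Qs ρ Q U D.hU.inv)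
    {g : H} (hg : g ∈ ⁅Q, Subgroup.zpowers (t ^ p ^ n)⁆) (h : a * g * a⁻¹ * g⁻¹ ∈ Qs ρ Q U D.hU.inv) :
    g ∈ Qs ρ Q U D.hU.inv := by
  have hyQ : t ^ p ^ n ∈ Subgroup.normalizer (Q : Set H) := Subgroup.pow_mem _ D.ht _
  have hAQ : Subgroup.zpowers (t ^ p ^ n) ≤ Subgroup.normalizer (Q : Set H) := Subgroup.zpowers_le.mpr hyQ
  have hQ₀le : ⁅Q, Subgroup.zpowers (t ^ p ^ n)⁆ ≤ Q := commutator_le_of_le_normalizer hAQ
  refine lift_fixed D.hpq _ (D.hQ.to_le hQ₀le) _ haQ₀ hap (fun x hx => ((mem_Pres.mp ha).2.1 x hx).1)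
    (fun x hx => ((mem_Pres.mp ha).2.2 x hx).1) (fun b hb x hx => ?_) hB hg h
  have hbQ := hQ₀le hb
  exact conj_mem_Qs (Subgroup.le_normalizer hbQ) (D.hU.inv b hbQ) (D.hU.inv _ (Q.inv_mem hbQ)) hx

/-- The quadratic identity: `y` acts on `[Q, y]` modulo `Qs` as a power of the fixed-point-free `c`. -/
theorem quadratic [Finite H] {q : ℕ} [Fact q.Prime] (D : LocalData (p := p) ρ Q U t n q)
    {c : H} (hcP : c ∈ Pres ρ Q U D.hU.inv) (hct : c * t = t * c) (hcord : orderOf c = p)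
    (hfpf : ∀ g ∈ Q, c * g * c⁻¹ * g⁻¹ ∈ Qs ρ Q U D.hU.inv → g ∈ Qs ρ Q U D.hU.inv) :
    ∃ k : ℕ, ∀ g ∈ ⁅Q, Subgroup.zpowers (t ^ p ^ n)⁆,
      t ^ p ^ n * g * (t ^ p ^ n)⁻¹ * (c ^ k * g * (c ^ k)⁻¹)⁻¹ ∈ Qs ρ Q U D.hU.inv := by
  classical
  have hpp : p.Prime := hp.out
  have hy1 := D.y_pow
  have hyP := D.y_pres
  have hcases := D.level_one
  have hytn := D.t_normalizes
  set y := t ^ p ^ n with hy
  have hyQ : y ∈ Subgroup.normalizer (Q : Set H) := Subgroup.pow_mem _ D.ht _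
  have hAQ : Subgroup.zpowers y ≤ Subgroup.normalizer (Q : Set H) := Subgroup.zpowers_le.mpr hyQ
  set Q₀ := ⁅Q, Subgroup.zpowers y⁆ with hQ₀
  have hQ₀le : Q₀ ≤ Q := commutator_le_of_le_normalizer hAQ
  set Z := Qs ρ Q U D.hU.inv with hZ
  have hcy : c * y = y * c := by
    have h1 : Commute c t := hct
    exact (h1.pow_right _).eq
  have hcN : c ∈ Subgroup.normalizer (Q : Set H) := (mem_Pres.mp hcP).1
  have hcQ₀ : c ∈ Subgroup.normalizer (Q₀ : Set H) := by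
    have hT : Subgroup.zpowers c ≤ Subgroup.normalizer (Q₀ : Set H) :=
      le_normalizer_commutator_of_le (Subgroup.zpowers_le.mpr hcN) (Subgroup.zpowers_le.mpr
        (mem_normalizer_zpowers_of_comm hcy))
    exact hT (Subgroup.mem_zpowers c)
  have hyQ₀ : y ∈ Subgroup.normalizer (Q₀ : Set H) := by
    have hy' : y ∈ Subgroup.zpowers t := Subgroup.pow_mem _ (Subgroup.mem_zpowers t) _
    exact (Subgroup.zpowers_le.mpr hytn) hy'
  by_cases h0 : Q₀ ≤ Z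
  · refine ⟨0, fun g hg => ?_⟩
    have hgZ := h0 hg
    have h1 := ((mem_Pres.mp hyP).2.1 g hgZ).1
    simpa using Z.mul_mem h1 (Z.inv_mem hgZ)
  obtain ⟨U₁, hU₁le, hU₁, htU₁, hdim⟩ := hcases.resolve_left h0
  by_contra hno
  push Not at hno
  -- the elements `a_k`
  let a : ℕ → H := fun k => y * c⁻¹ ^ k
  have hcinv : ∀ k : ℕ, y * c⁻¹ ^ k = c⁻¹ ^ k * y := by
    intro k
    have h1 : Commute c⁻¹ y := Commute.inv_left hcy
    exact ((h1.pow_left k).eq).symm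
  have haP : ∀ k, a k ∈ Pres ρ Q U D.hU.inv := fun k =>
    Subgroup.mul_mem _ hyP (Subgroup.pow_mem _ (Subgroup.inv_mem _ hcP) k)
  have haQ₀ : ∀ k, a k ∈ Subgroup.normalizer (Q₀ : Set H) := fun k =>
    Subgroup.mul_mem _ hyQ₀ (Subgroup.pow_mem _ (Subgroup.inv_mem _ hcQ₀) k)
  have hat : ∀ k, a k * t = t * a k := by
    intro k
    have h1 : Commute y t := ((Commute.refl t).pow_left _)
    have h2 : Commute c⁻¹ t := Commute.inv_left hct
    exact (h1.mul_left (h2.pow_left k)).eq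
  have hcp : c ^ p = 1 := by
    rw [← hcord, pow_orderOf_eq_one]
  have hap : ∀ k, a k ^ p = 1 := by
    intro k
    have h1 : Commute y (c⁻¹ ^ k) := (hcinv k)
    change (y * c⁻¹ ^ k) ^ p = 1
    rw [h1.mul_pow, hy1, one_mul, ← pow_mul, mul_comm, pow_mul, inv_pow, hcp]
    simp
  have hB : ∀ k, ∀ g ∈ Q₀, g * a k = a k * g → g ∈ Z := by
    intro k
    rcases D.level_two hU₁le hU₁ htU₁ hdim (haP k) (haQ₀ k) (hat k) (hap k) with hleft | hright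
    · exfalso
      obtain ⟨g, hg, hgno⟩ := hno k
      apply hgno
      have hck : c ^ k ∈ Subgroup.normalizer (Q₀ : Set H) := Subgroup.pow_mem _ hcQ₀ k
      have hg' : c ^ k * g * (c ^ k)⁻¹ ∈ Q₀ := conj_mem_of_mem_normalizer hck hg
      have h1 := hleft _ hg'
      have e : a k * (c ^ k * g * (c ^ k)⁻¹) * (a k)⁻¹ = y * g * y⁻¹ := by
        change (y * c⁻¹ ^ k) * (c ^ k * g * (c ^ k)⁻¹) * (y * c⁻¹ ^ k)⁻¹ = y * g * y⁻¹
        rw [inv_pow]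
        group
      rw [e] at h1
      exact h1
    · exact hright
  -- the section
  obtain ⟨E, iE, π, act, hπadd, hπsurj, hπ0, hπact⟩ := exists_section_ring Q Z (Pres ρ Q U D.hU.inv) Qs_le D.hc2
    (fun b hb g hg => conj_mem_of_mem_normalizer (mem_Pres.mp hb).1 hg)
    (fun b hb g hg => ((mem_Pres.mp hb).2.1 g hg).1)
  have hπ1 : π 1 = 0 := by
    have := hπadd 1 1
    rw [mul_one] at this
    simpa using this
  have hπinv : ∀ x, π x⁻¹ = - π x := by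
    intro x
    have := hπadd x⁻¹ x
    rw [inv_mul_cancel, hπ1] at this
    exact (eq_neg_of_add_eq_zero_left this.symm)
  have hπpow : ∀ (x : Q) (j : ℕ), π (x ^ j) = j • π x := by
    intro x j
    induction j with
    | zero => simp [hπ1]
    | succ j ih => rw [pow_succ, hπadd, ih, succ_nsmul]
  have hconjmem : ∀ (b : Pres ρ Q U D.hU.inv) (x : Q), b.1 * x.1 * b.1⁻¹ ∈ Q := fun b x =>
    conj_mem_of_mem_normalizer (mem_Pres.mp b.2).1 x.2
  have hactπ : ∀ (b : Pres ρ Q U D.hU.inv) (x : Q), act b (π x) = π ⟨_, hconjmem b x⟩ := fun b x =>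
    hπact b x ⟨_, hconjmem b x⟩ rfl
  have hfix : ∀ (b : Pres ρ Q U D.hU.inv) (x : Q), act b (π x) = π x → b.1 * x.1 * b.1⁻¹ * x.1⁻¹ ∈ Z := by
    intro b x hx
    have hm : b.1 * x.1 * b.1⁻¹ * x.1⁻¹ ∈ Q := Q.mul_mem (hconjmem b x) (Q.inv_mem x.2)
    have e : (⟨_, hm⟩ : Q) = ⟨_, hconjmem b x⟩ * x⁻¹ := Subtype.ext rfl
    apply (hπ0 ⟨_, hm⟩).mp
    rw [e, hπadd, hπinv, ← hactπ, hx, add_neg_cancel]
  have hpE : ∀ w : E, p • w = 0 → w = 0 := by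
    intro w hw
    obtain ⟨x, rfl⟩ := hπsurj w
    obtain ⟨m, hm⟩ := D.hQ x
    have h1 : (q ^ m) • π x = 0 := by
      rw [← hπpow, hm, hπ1]
    have h2 : addOrderOf (π x) ∣ p := addOrderOf_dvd_of_nsmul_eq_zero hw
    have h3 : addOrderOf (π x) ∣ q ^ m := addOrderOf_dvd_of_nsmul_eq_zero h1
    have h4 : Nat.Coprime p (q ^ m) := Nat.Coprime.pow_right _ ((Nat.coprime_primes hpp Fact.out).mpr D.hpq)
    have h5 : addOrderOf (π x) = 1 := Nat.eq_one_of_dvd_coprimes h4 h2 h3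
    exact AddMonoid.addOrderOf_eq_one_iff.mp h5
  let ŷ : Pres ρ Q U D.hU.inv := ⟨y, hyP⟩
  let ĉ : Pres ρ Q U D.hU.inv := ⟨c, hcP⟩
  let S : AddSubgroup E :=
    { carrier := {v | ∃ x : Q, x.1 ∈ Q₀ ∧ π x = v}
      add_mem' := by
        rintro _ _ ⟨x, hx, rfl⟩ ⟨x', hx', rfl⟩
        exact ⟨x * x', Q₀.mul_mem hx hx', hπadd _ _⟩
      zero_mem' := ⟨1, Q₀.one_mem, hπ1⟩
      neg_mem' := by
        rintro _ ⟨x, hx, rfl⟩
        exact ⟨x⁻¹, Q₀.inv_mem hx, hπinv _⟩ }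
  have hSstable : ∀ b : Pres ρ Q U D.hU.inv, b.1 ∈ Subgroup.normalizer (Q₀ : Set H) → ∀ v ∈ S, act b v ∈ S := by
    rintro b hb _ ⟨x, hx, rfl⟩
    exact ⟨⟨_, hconjmem b x⟩, conj_mem_of_mem_normalizer hb hx, (hactπ b x).symm⟩
  have hyd : act ŷ * act ĉ⁻¹ = act ĉ⁻¹ * act ŷ := by
    rw [← map_mul, ← map_mul]
    congr 1
    apply Subtype.ext
    exact (Commute.inv_left hcy).eq.symm
  have hYp : act ŷ ^ p = 1 := by
    rw [← map_pow]
    have : ŷ ^ p = 1 := Subtype.ext hy1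
    rw [this, map_one]
  have hDp : act ĉ⁻¹ ^ p = 1 := by
    rw [← map_pow]
    have : ĉ⁻¹ ^ p = 1 := by
      apply Subtype.ext
      change c⁻¹ ^ p = 1
      rw [inv_pow, hcp, inv_one]
    rw [this, map_one]
  have hnorm := norm_identity (p := p) hyd hYp hDp (S := S) (hSstable ŷ hyQ₀)
    (hSstable ĉ⁻¹ (Subgroup.inv_mem _ hcQ₀))
    (by
      rintro k hk _ ⟨x, hx, rfl⟩ hv
      have e : act ŷ * act ĉ⁻¹ ^ k = act (ŷ * ĉ⁻¹ ^ k) := by
        rw [map_mul, map_pow]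
      rw [e] at hv
      have h1 := hfix _ x hv
      have h2 : x.1 ∈ Z := D.fixed_mod_lift (haP k) (haQ₀ k) (hap k) (hB k) hx h1
      exact (hπ0 x).mpr h2)
    (by
      rintro i hi hip _ ⟨x, hx, rfl⟩ hv
      have hc'ord : orderOf c⁻¹ = p ^ (0 + 1) := by
        rw [orderOf_inv, hcord]
        simp
      have hne : c⁻¹ ^ i ≠ 1 := by
        intro h
        have h1 := orderOf_dvd_of_pow_eq_one h
        rw [orderOf_inv, hcord] at h1
        exact absurd (Nat.le_of_dvd hi h1) (by omega)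
      obtain ⟨l, hl⟩ := exists_pow_eq (n := 0) hc'ord (Subgroup.pow_mem _ (Subgroup.mem_zpowers _) i) hne
        (isOfFinOrder_of_finite _)
      have hpw : ∀ (A : AddMonoid.End E) (v : E), A v = v → ∀ l : ℕ, (A ^ l) v = v := by
        intro A v h l
        induction l with
        | zero => simp
        | succ l ih => rw [pow_succ, end_mul_apply, h, ih]
      have h1 : ((act ĉ⁻¹ ^ i) ^ l) (π x) = π x := hpw _ _ hv l
      have e : (act ĉ⁻¹ ^ i) ^ l = act ĉ⁻¹ := by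
        rw [← map_pow, ← map_pow]
        congr 1
        apply Subtype.ext
        simpa using hl
      rw [e] at h1
      have h2 : act ĉ (π x) = π x := by
        have h3 : act ĉ (act ĉ⁻¹ (π x)) = π x := by
          rw [← end_mul_apply, ← map_mul, mul_inv_cancel, map_one]
          rfl
        rw [h1] at h3
        exact h3
      exact (hπ0 x).mpr (hfpf x.1 x.2 (hfix ĉ x h2)))
  apply h0
  intro g hg
  have hgQ := hQ₀le hg
  have h1 := hnorm (π ⟨g, hgQ⟩) ⟨⟨g, hgQ⟩, hg, rfl⟩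
  exact (hπ0 ⟨g, hgQ⟩).mp (hpE _ h1)

end LocalData

end local_data

end Cfsg.Agent.Lib.HHLen.Local
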