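/-
The commuting lemma: if `(z - 1) ^ (p ^ (e + 1) - 1) = 0` for all elements of a `p`-group of exponent
`p ^ (e + 1)` acting on a faithful module in characteristic `p` for a `p`-solvable group with `O_p = 1`,
`p` odd, then the elements `z ^ p ^ e` commute pairwise.
-/
import Cfsg.Agent.Lib.HHLen.Local
import Cfsg.Agent.Lib.HallHigman.Derived

set_option autoImplicit false
set_option linter.style.haveILetI false

namespace Cfsg.Agent.Lib.HHLen.Commuting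

open Module Cfsg.Agent.Lib.HallHigman.Irr Cfsg.Agent.Lib.HallHigman.Core
  Cfsg.Agent.Lib.HHLen.Basic Cfsg.Agent.Lib.Coprime.Action Cfsg.Agent.Lib.HHLen.Section
  Cfsg.Agent.Lib.HHLen.Local
open scoped commutatorElement

universe u v w

section groups

variable {H : Type w} [Group H] [Finite H] {p : ℕ} [hp : Fact p.Prime]

/-- A central element of order `p` in a normal subgroup of a `p`-subgroup. -/
theorem exists_central_order_p (P : Subgroup H) (hP : IsPGroup p P) (D : Subgroup H) (hDP : D ≤ P)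
    (hDn : ∀ x ∈ P, ∀ d ∈ D, x * d * x⁻¹ ∈ D) (hD : D ≠ ⊥) :
    ∃ c ∈ D, (∀ g ∈ P, g * c = c * g) ∧ orderOf c = p := by
  have hpp : p.Prime := hp.out
  let N : Subgroup P := D.subgroupOf P
  haveI hNn : N.Normal := by
    constructor
    intro n hn g
    rw [Subgroup.mem_subgroupOf] at hn ⊢
    exact hDn g.1 g.2 n.1 hn
  have hN1 : N ≠ ⊥ := by
    intro hbot
    apply hD
    rw [eq_bot_iff]
    intro d hd
    have h1 : (⟨d, hDP hd⟩ : P) ∈ N := hd
    rw [hbot, Subgroup.mem_bot] at h1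
    simpa using congrArg Subtype.val h1
  obtain ⟨c₀, hc₀⟩ := (Subgroup.ne_bot_iff_exists_ne_one (H := N ⊓ Subgroup.center P)).mp
    (Cfsg.Agent.Lib.Involutions2.NormalFour.inf_center_ne_bot hP N hN1)
  obtain ⟨k, hk⟩ := (IsPGroup.iff_orderOf.mp hP) c₀.1
  have hk0 : k ≠ 0 := by
    rintro rfl
    rw [pow_zero, orderOf_eq_one_iff] at hk
    exact hc₀ (Subtype.ext hk)
  obtain ⟨j, rfl⟩ := Nat.exists_eq_succ_of_ne_zero hk0
  let c₂ : P := c₀.1 ^ p ^ j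
  have hc₂mem : c₂ ∈ N ⊓ Subgroup.center P := Subgroup.pow_mem _ c₀.2 _
  have hc₂p : c₂ ^ p = 1 := by
    change (c₀.1 ^ p ^ j) ^ p = 1
    rw [← pow_mul, ← pow_succ, ← Nat.succ_eq_add_one, ← hk, pow_orderOf_eq_one]
  have hc₂1 : c₂ ≠ 1 := by
    intro h
    have h1 := orderOf_dvd_of_pow_eq_one h
    rw [hk] at h1
    have h2 := (Nat.pow_dvd_pow_iff_le_right hpp.one_lt).mp h1
    omega
  have hc₂o : orderOf c₂ = p := orderOf_eq_prime hc₂p hc₂1
  refine ⟨c₂.1, hc₂mem.1, fun g hg => ?_, ?_⟩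
  · have h1 := Subgroup.mem_center_iff.mp hc₂mem.2 ⟨g, hg⟩
    exact congrArg Subtype.val h1
  · rw [← hc₂o]
    exact Subgroup.orderOf_coe _

/-- A critical subgroup with derived subgroup centralized. -/
theorem exists_critical_two (hsol : Cfsg.IsPSolvable p H) (hOp : Cfsg.pCore p H = ⊥) (A : Subgroup H)
    (hA : IsPGroup p A) (y : H) (hyA : y ∈ A) (hyZ : ∀ g ∈ A, g * y = y * g) (hordy : orderOf y = p) :
    ∃ (q : ℕ) (_ : Fact q.Prime) (Q : Subgroup H), q ≠ p ∧ IsPGroup q Q ∧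
      A ≤ Subgroup.normalizer (Q : Set H) ∧ ⁅Q, Subgroup.zpowers y⁆ = Q ∧ Q ≠ ⊥ ∧
      (∀ g ∈ Q, g * y = y * g → ∀ h ∈ Q, g * h = h * g) ∧
      (∀ g ∈ Q, ∀ h ∈ Q, (g * h * g⁻¹ * h⁻¹) * y = y * (g * h * g⁻¹ * h⁻¹)) := by
  classical
  have hpp : p.Prime := hp.out
  obtain ⟨q, hq, Q₀, hqp, hQ₀, hAQ₀, hQ₀Y, hQ₀bot, hZ₀⟩ :=
    Cfsg.Agent.Lib.HallHigman.Derived.exists_critical_under hsol hOp A hA y hyA hyZ hordy
  let Y := Subgroup.zpowers y
  let Pr : Subgroup H → Prop := fun Q => Q ≤ Q₀ ∧ A ≤ Subgroup.normalizer (Q : Set H) ∧ ⁅Q, Y⁆ = Q ∧ Q ≠ ⊥ ∧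
    (∀ g ∈ Q, g * y = y * g → ∀ h ∈ Q, g * h = h * g)
  obtain ⟨Q, hQm⟩ := exists_minimal_of_wellFoundedLT Pr ⟨Q₀, le_rfl, hAQ₀, hQ₀Y, hQ₀bot, hZ₀⟩
  obtain ⟨hQ₁, hAQ, hQY, hQbot, hZ⟩ := hQm.1
  have hQq : IsPGroup q Q := hQ₀.to_le hQ₁
  have hYA : Y ≤ A := by
    rw [Subgroup.zpowers_le]
    exact hyA
  have hAY : A ≤ Subgroup.normalizer (Y : Set H) := by
    intro a ha
    exact mem_normalizer_zpowers_of_comm (hyZ a ha)
  have hqq : q.Prime := hq.out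
  have hD1 : ⁅Q, Q⁆ ≤ Q := commutator_le_of_le_normalizer Subgroup.le_normalizer
  have hD2 : A ≤ Subgroup.normalizer ((⁅Q, Q⁆ : Subgroup H) : Set H) :=
    le_normalizer_commutator_of_le hAQ hAQ
  have hD3 : ⁅Q, Q⁆ ≠ Q := by
    intro heq
    haveI : Nontrivial Q := (Subgroup.bot_or_nontrivial Q).resolve_left hQbot
    haveI : Group.IsNilpotent Q := hQq.isNilpotent
    have h1 : commutator Q < ⊤ := Group.IsSolvable.commutator_lt_top_of_nontrivial Q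
    have h2 : (commutator Q).map Q.subtype = Q := by
      rw [Subgroup.map_subtype_commutator, heq]
    have h3 : commutator Q = ⊤ := by
      apply Subgroup.map_injective Q.subtype_injective
      rw [h2, ← MonoidHom.range_eq_map, Subgroup.range_subtype]
    exact h1.ne h3
  have hDc : ⁅Q, Q⁆ ≤ Subgroup.centralizer (Y : Set H) := by
    by_contra hne
    have hcop : (Nat.card Y).Coprime (Nat.card (⁅Q, Q⁆ : Subgroup H)) :=
      coprime_zpowers hqp.symm (by rw [← hordy, pow_orderOf_eq_one]) (hQq.to_le hD1)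
    obtain ⟨Q₂, hQ₂S, hTQ₂, hQ₂Y, hQ₂bot, hQ₂Z⟩ := Cfsg.Agent.Lib.HallHigman.Reduction.exists_minimal A Y ⁅Q, Q⁆ hYA hAY
      (hQq.to_le hD1) hD2 hcop inferInstance hne
    have hPr : Pr Q₂ := ⟨hQ₂S.trans (hD1.trans hQ₁), hTQ₂, hQ₂Y, hQ₂bot, fun g hg hgy h hh =>
      hQ₂Z g hg (fun z hz => by
        obtain ⟨k, rfl⟩ := Subgroup.mem_zpowers_iff.mp hz
        have h1 : Commute g y := hgy
        exact (h1.zpow_right k).eq) h hh⟩
    have h1 : Q ≤ Q₂ := hQm.2 hPr (hQ₂S.trans hD1)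
    exact hD3 (le_antisymm hD1 (h1.trans hQ₂S))
  refine ⟨q, hq, Q, hqp, hQq, hAQ, hQY, hQbot, hZ, fun g hg h hh => ?_⟩
  have h1 : g * h * g⁻¹ * h⁻¹ ∈ ⁅Q, Q⁆ := by
    have := Subgroup.commutator_mem_commutator hg hh
    rwa [commutatorElement_def] at this
  have h2 := Subgroup.mem_centralizer_iff.mp (hDc h1) y (Subgroup.mem_zpowers y)
  exact h2.symm

end groups

section orbit

variable {H : Type w} [Group H] {K : Type u} [Field K] {V : Type v} [AddCommGroup V] [Module K V]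
  {p : ℕ} [hp : Fact p.Prime]

/-- The orbit of an irreducible under a `p`-element. -/
theorem exists_orbit [IsAlgClosed K] [Finite H] [FiniteDimensional K V] (ρ : H →* End K V) (Q : Subgroup H)
    (x : H) (hx : x ∈ Subgroup.normalizer (Q : Set H)) (n : ℕ) (hord : orderOf x = p ^ (n + 1))
    {U₁ : Submodule K V} (hU₁ : IsIrr ρ Q U₁) :
    ∃ a, a ≤ n + 1 ∧ ∃ U, IsIrr ρ Q U ∧ (∀ u ∈ U, ρ (x ^ p ^ a) u ∈ U) ∧ HomNZ ρ Q U₁ U ∧
      iSupIndep (fun i : Fin (p ^ a) => tw ρ (x ^ (i : ℕ)) U) := by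
  classical
  have hpp : p.Prime := hp.out
  set L := p ^ (n + 1) with hL
  have hLpos : 0 < L := pow_pos hpp.pos _
  have hxL : x ^ L = 1 := by
    rw [← hord, pow_orderOf_eq_one]
  have hxn : ∀ i : ℕ, x ^ i ∈ Subgroup.normalizer (Q : Set H) := fun i => Subgroup.pow_mem _ hx i
  let S : ℕ → Prop := fun i => HomNZ ρ Q (tw ρ (x ^ i) U₁) U₁
  have hrefl : ∀ {W : Submodule K V}, W ≠ ⊥ → HomNZ ρ Q W W := by
    intro W hW
    obtain ⟨a, ha, ha0⟩ := Submodule.exists_mem_ne_zero_of_ne_bot hW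
    exact ⟨1, fun a ha => ha, fun g _ a _ => rfl, a, ha, ha0⟩
  have hS0 : S 0 := by
    change HomNZ ρ Q (tw ρ (x ^ 0) U₁) U₁
    rw [pow_zero, tw_one]
    exact hrefl hU₁.ne_bot
  have hSadd : ∀ i j, S i → S j → S (i + j) := by
    intro i j hi hj
    change HomNZ ρ Q (tw ρ (x ^ (i + j)) U₁) U₁
    rw [pow_add, tw_mul]
    exact HomNZ.trans (hU₁.tw (hxn i)) (hj.tw (hxn i)) hi
  have hSmul : ∀ i k, S i → S (k * i) := by
    intro i k hi
    induction k with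
    | zero => simpa using hS0
    | succ k ih =>
      rw [add_mul, one_mul]
      exact hSadd _ _ ih hi
  have hSper : ∀ e w, S (e + L * w) → S e := by
    intro e w h
    change HomNZ ρ Q (tw ρ (x ^ (e + L * w)) U₁) U₁ at h
    rwa [pow_add, pow_mul, hxL, one_pow, mul_one] at h
  have hSL : S L := by
    change HomNZ ρ Q (tw ρ (x ^ L) U₁) U₁
    rw [hxL, tw_one]
    exact hrefl hU₁.ne_bot
  have hexd : ∃ d, 0 < d ∧ S d := ⟨L, hLpos, hSL⟩
  let d := Nat.find hexd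
  obtain ⟨hdpos, hdS⟩ : 0 < d ∧ S d := Nat.find_spec hexd
  have hdmin : ∀ e, e < d → 0 < e → ¬ S e := fun e he he' hS => Nat.find_min hexd he ⟨he', hS⟩
  have hdvd : ∀ i, S i → d ∣ i := by
    intro i hi
    have h1 : S (i + (L - 1) * (i / d * d)) := hSadd _ _ hi (hSmul _ _ (hSmul _ _ hdS))
    have h2 : i + (L - 1) * (i / d * d) = i % d + L * (i / d * d) := by
      obtain ⟨L', hL'⟩ : ∃ L', L = L' + 1 := ⟨L - 1, by omega⟩
      rw [hL']
      simp only [Nat.add_sub_cancel]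
      have h3 := Nat.mod_add_div' i d
      nlinarith [h3]
    rw [h2] at h1
    have h4 := hSper _ _ h1
    by_contra hnd
    have h5 : 0 < i % d := Nat.pos_of_ne_zero (fun h => hnd (Nat.dvd_of_mod_eq_zero h))
    exact hdmin _ (Nat.mod_lt _ hdpos) h5 h4
  obtain ⟨a, ha, hda⟩ := (Nat.dvd_prime_pow hpp).mp (hdvd L hSL)
  have hdivS : ∀ i, S i → p ^ a ∣ i := fun i hi => hda ▸ hdvd i hi
  have hSa : S (p ^ a) := hda ▸ hdS
  have hdvdL : p ^ a ∣ L := pow_dvd_pow p ha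
  obtain ⟨U, hU, htU, hU₁U⟩ := Cfsg.Agent.Lib.HallHigman.Clifford.exists_invariant_irr (hxn (p ^ a)) hU₁ hSa
  have hUU₁ : HomNZ ρ Q U U₁ := hU₁U.symm hU₁ hU
  refine ⟨a, ha, U, hU, htU, hU₁U, ?_⟩
  apply iSupIndep_of_no_hom (ρ := ρ) (Q := Q)
  · intro i
    exact hU.tw (hxn _)
  · rintro i j hij hhom
    apply hij
    have hjL : (j : ℕ) ≤ L := (Nat.lt_of_lt_of_le j.2 (Nat.le_of_dvd hLpos hdvdL)).le
    have h1 := hhom.tw (hxn (L - j))
    rw [← tw_mul, ← tw_mul, ← pow_add, ← pow_add, Nat.sub_add_cancel hjL, hxL, tw_one] at h1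
    have h2 : S (L - j + i) := by
      change HomNZ ρ Q (tw ρ (x ^ (L - j + i)) U₁) U₁
      exact HomNZ.trans (hU.tw (hxn _)) (hU₁U.tw (hxn _)) (HomNZ.trans hU h1 hUU₁)
    have h3 := hdivS _ h2
    apply Fin.ext
    have h4 : (i : ℕ) ≡ j [MOD p ^ a] := by
      have e1 : (L - j + i) ≡ 0 [MOD p ^ a] := (Nat.modEq_zero_iff_dvd).mpr h3
      have e2 : (j + (L - j)) ≡ 0 [MOD p ^ a] := by
        rw [Nat.add_sub_cancel' hjL]
        exact (Nat.modEq_zero_iff_dvd).mpr hdvdL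
      have e3 : (i + (L - j)) ≡ (j + (L - j)) [MOD p ^ a] := by
        rw [add_comm]
        exact e1.trans e2.symm
      exact Nat.ModEq.add_right_cancel' _ e3
    exact Nat.ModEq.eq_of_lt_of_lt h4 i.2 j.2

variable [CharP K p]

/-- The stabilizer of the type contains `z ^ p ^ e`, with the Jordan block bound. -/
theorem exists_stable [IsAlgClosed K] [Finite H] [FiniteDimensional K V] (ρ : H →* End K V) (Q : Subgroup H)
    (z : H) (hz : z ∈ Subgroup.normalizer (Q : Set H)) (e : ℕ) (hord : orderOf z = p ^ (e + 1))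
    (hr : (ρ z - 1) ^ (p ^ (e + 1) - 1) = 0) {U₁ : Submodule K V} (hU₁ : IsIrr ρ Q U₁) :
    ∃ a n U, a + n = e ∧ IsIrr ρ Q U ∧ (∀ u ∈ U, ρ (z ^ p ^ a) u ∈ U) ∧ HomNZ ρ Q U₁ U ∧
      orderOf (z ^ p ^ a) = p ^ (n + 1) ∧ (z ^ p ^ a) ^ p ^ n = z ^ p ^ e ∧
      (∀ u ∈ U, ((ρ (z ^ p ^ a) - 1) ^ (p ^ (n + 1) - 1)) u = 0) := by
  have hpp : p.Prime := hp.out
  obtain ⟨a, ha, U, hU, htU, hhom, hind⟩ := exists_orbit ρ Q z hz e hord hU₁
  have hLpos : 0 < p ^ (e + 1) := pow_pos hpp.pos _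
  obtain ⟨u₀, hu₀, hu₀0⟩ := Submodule.exists_mem_ne_zero_of_ne_bot hU.ne_bot
  have hae : a ≤ e := by
    by_contra hae
    have ha' : a = e + 1 := by omega
    subst ha'
    have h1 := block_bound ρ z (e + 1) 1 _ le_rfl hind htU hu₀ (by simpa using hu₀0) hr
    omega
  obtain ⟨n, hn⟩ : ∃ n, a + n = e := ⟨e - a, by omega⟩
  have hdvdL : p ^ a ∣ orderOf z := by
    rw [hord]
    exact pow_dvd_pow p (by omega)
  have hordt : orderOf (z ^ p ^ a) = p ^ (n + 1) := by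
    rw [orderOf_pow_of_dvd (pow_ne_zero _ hpp.ne_zero) hdvdL, hord, ← hn]
    rw [show a + n + 1 = a + (n + 1) by ring, pow_add]
    exact Nat.mul_div_cancel_left _ (pow_pos hpp.pos a)
  refine ⟨a, n, U, hn, hU, htU, hhom, hordt, ?_, fun u hu => ?_⟩
  · rw [← pow_mul, ← pow_add, hn]
  · by_contra hne
    have h1 := block_bound ρ z a (p ^ (n + 1)) _ (Nat.one_le_pow _ _ hpp.pos) hind htU hu hne hr
    rw [← pow_add, show a + (n + 1) = e + 1 by omega] at h1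
    omega

end orbit

section main

variable {K : Type u} [Field K] [IsAlgClosed K] {V : Type v} [AddCommGroup V] [Module K V]
  [FiniteDimensional K V] {H : Type w} [Group H] [Finite H] {p : ℕ} [hp : Fact p.Prime] [CharP K p]

/-- **The commuting lemma**, over an algebraically closed field. -/
theorem commuting_powers_alg (hp2 : p ≠ 2) (hsol : Cfsg.IsPSolvable p H) (hOp : Cfsg.pCore p H = ⊥)
    (ρ : H →* End K V) (hρ : Function.Injective ρ) (P : Subgroup H) (hP : IsPGroup p P) (e : ℕ)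
    (hexp : ∀ z ∈ P, z ^ p ^ (e + 1) = 1) (hnil : ∀ z ∈ P, (ρ z - 1) ^ (p ^ (e + 1) - 1) = 0) :
    ∀ z ∈ P, ∀ z' ∈ P, z ^ p ^ e * z' ^ p ^ e = z' ^ p ^ e * z ^ p ^ e := by
  classical
  by_contra hne
  push Not at hne
  obtain ⟨z₁, hz₁, z₂, hz₂, hz₁₂⟩ := hne
  have hpp : p.Prime := hp.out
  have hodd : Odd p := hpp.odd_of_ne_two hp2
  -- the set `Y`
  let Y : Set H := {y | ∃ z ∈ P, y = z ^ p ^ e}
  have hYP : ∀ y ∈ Y, y ∈ P := by
    rintro _ ⟨z, hz, rfl⟩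
    exact Subgroup.pow_mem _ hz _
  have hYconj : ∀ x ∈ P, ∀ y ∈ Y, x * y * x⁻¹ ∈ Y := by
    rintro x hx _ ⟨z, hz, rfl⟩
    exact ⟨x * z * x⁻¹, P.mul_mem (P.mul_mem hx hz) (P.inv_mem hx), (conj_pow).symm⟩
  have hYinv : ∀ y ∈ Y, y⁻¹ ∈ Y := by
    rintro _ ⟨z, hz, rfl⟩
    exact ⟨z⁻¹, P.inv_mem hz, (inv_pow _ _).symm⟩
  have hYp : ∀ y ∈ Y, y ^ p = 1 := by
    rintro _ ⟨z, hz, rfl⟩
    rw [← pow_mul, ← pow_succ]
    exact hexp z hz
  -- the subgroup `D`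
  let D : Subgroup H := Subgroup.closure {w | ∃ a ∈ Y, ∃ b ∈ Y, w = ⁅a, b⁆}
  have hDP : D ≤ P := by
    rw [Subgroup.closure_le]
    rintro _ ⟨a, ha, b, hb, rfl⟩
    have h1 := hYP a ha
    have h2 := hYP b hb
    rw [commutatorElement_def]
    exact P.mul_mem (P.mul_mem (P.mul_mem h1 h2) (P.inv_mem h1)) (P.inv_mem h2)
  have hDn : ∀ x ∈ P, ∀ d ∈ D, x * d * x⁻¹ ∈ D := by
    intro x hx d hd
    have hle : D ≤ D.comap (MulAut.conj x).toMonoidHom := by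
      rw [Subgroup.closure_le]
      rintro _ ⟨a, ha, b, hb, rfl⟩
      change x * ⁅a, b⁆ * x⁻¹ ∈ D
      apply Subgroup.subset_closure
      refine ⟨x * a * x⁻¹, hYconj x hx a ha, x * b * x⁻¹, hYconj x hx b hb, ?_⟩
      simp only [commutatorElement_def]
      group
    exact hle hd
  have hDbot : D ≠ ⊥ := by
    intro hbot
    have hmem : ⁅z₁ ^ p ^ e, z₂ ^ p ^ e⁆ ∈ D :=
      Subgroup.subset_closure ⟨_, ⟨z₁, hz₁, rfl⟩, _, ⟨z₂, hz₂, rfl⟩, rfl⟩
    rw [hbot, Subgroup.mem_bot, commutatorElement_eq_one_iff_mul_comm] at hmem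
    exact hz₁₂ hmem
  obtain ⟨c, hcD, hcZ, hcord⟩ := exists_central_order_p P hP D hDP hDn hDbot
  have hcPP := hDP hcD
  have hcp : c ^ p = 1 := by
    rw [← hcord, pow_orderOf_eq_one]
  obtain ⟨q, hq, Q, hqp, hQ, hPQ, hQY, hQbot, hZc, hQ'c⟩ :=
    exists_critical_two hsol hOp P hP c hcPP hcZ hcord
  have hqq : q.Prime := hq.out
  have hq' : (q : K) ≠ 0 := by
    intro h
    have h1 : p ∣ q := (CharP.cast_eq_zero_iff K p q).mp h
    exact hqp ((Nat.prime_dvd_prime_iff_eq hpp hqq).mp h1).symm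
  obtain ⟨g₀, hg₀⟩ := (Subgroup.ne_bot_iff_exists_ne_one (H := Q)).mp hQbot
  have hne₀ : ρ g₀.1 ≠ 1 := by
    intro h
    apply hg₀
    apply Subtype.ext
    apply hρ
    rw [h]
    exact (map_one ρ).symm
  obtain ⟨U₀, hU₀, g₁, hg₁, u₁, hu₁, hgu₁⟩ :=
    Cfsg.Agent.Lib.HallHigman.Reduction.exists_irr_nontrivial hq' ρ Q hQ g₀.2 hne₀
  set Z := Qs ρ Q U₀ hU₀.inv with hZdef
  set B := Pres ρ Q U₀ hU₀.inv with hBdef
  have hcen : ∀ a ∈ Q, (∀ h ∈ Q, a * h = h * a) → a ∈ Z := by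
    intro a ha hh
    refine mem_Qs.mpr ⟨ha, fun h' hh' u _ => ?_⟩
    rw [← Module.End.mul_apply, ← Module.End.mul_apply, ← map_mul, ← map_mul, hh h' hh']
  have hc2 : ∀ g ∈ Q, ∀ h ∈ Q, g * h * g⁻¹ * h⁻¹ ∈ Z := by
    intro g hg h hh
    have ha : g * h * g⁻¹ * h⁻¹ ∈ Q := Q.mul_mem (Q.mul_mem (Q.mul_mem hg hh) (Q.inv_mem hg)) (Q.inv_mem hh)
    exact hcen _ ha (hZc _ ha (hQ'c g hg h hh))
  -- the elements of `Y` and the local data
  have hloc : ∀ z ∈ P, z ^ p ^ e ≠ 1 → ∃ (t : H) (n : ℕ) (U : Submodule K V) (hU : IsIrr ρ Q U),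
      HomNZ ρ Q U₀ U ∧ t ∈ P ∧ t ^ p ^ n = z ^ p ^ e ∧ LocalData (p := p) ρ Q U t n q := by
    intro z hz hz1
    have hordz : orderOf z = p ^ (e + 1) := orderOf_eq_prime_pow hz1 (hexp z hz)
    obtain ⟨a, n, U, -, hU, htU, hhom, hordt, hpw, hnilU⟩ :=
      exists_stable ρ Q z (hPQ hz) e hordz (hnil z hz) hU₀
    have hqs := Qs_eq_of_hom hU₀ hU hhom
    refine ⟨z ^ p ^ a, n, U, hU, hhom, Subgroup.pow_mem _ hz _, hpw, ?_⟩
    exact { hpq := hqp.symm, hq := hq', hQ := hQ, hU := hU, ht := Subgroup.pow_mem _ (hPQ hz) _, htU := htU,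
            hord := hordt, hnil := hnilU, hc2 := fun g hg h hh => by
              rw [← hqs]
              exact hc2 g hg h hh }
  have hYB : ∀ y ∈ Y, y ∈ B := by
    rintro _ ⟨z, hz, rfl⟩
    by_cases hz1 : z ^ p ^ e = 1
    · rw [hz1]
      exact Subgroup.one_mem _
    · obtain ⟨t, n, U, hU, hhom, -, hpw, DD⟩ := hloc z hz hz1
      have h1 := DD.y_pres
      rw [hpw] at h1
      rw [hBdef, Pres_eq_of_hom hU₀ hU hhom]
      exact h1
  have hDB : D ≤ B := by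
    rw [Subgroup.closure_le]
    rintro _ ⟨a, ha, b, hb, rfl⟩
    have h1 := hYB a ha
    have h2 := hYB b hb
    rw [commutatorElement_def]
    exact B.mul_mem (B.mul_mem (B.mul_mem h1 h2) (B.inv_mem h1)) (B.inv_mem h2)
  have hcB : c ∈ B := hDB hcD
  -- `c` is fixed point free
  have hQZconj : ∀ b ∈ Q, ∀ x ∈ Z, b * x * b⁻¹ ∈ Z := fun b hb x hx =>
    conj_mem_Qs (Subgroup.le_normalizer hb) (hU₀.inv b hb) (hU₀.inv _ (Q.inv_mem hb)) hx
  have hfpf : ∀ g ∈ Q, c * g * c⁻¹ * g⁻¹ ∈ Z → g ∈ Z := by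
    intro g hg h
    refine lift_fixed hqp.symm Q hQ Z (hPQ hcPP) hcp (fun x hx => ((mem_Pres.mp hcB).2.1 x hx).1)
      (fun x hx => ((mem_Pres.mp hcB).2.2 x hx).1) hQZconj
      (fun g hg hgc => hcen g hg (hZc g hg hgc)) hg h
  -- `Q` is not central on `U₀`
  have hQZ : ¬ Q ≤ Z := by
    intro hle
    let Fx : Subgroup H :=
      { carrier := {x | x ∈ Q ∧ ∀ u ∈ U₀, ρ x u = u}
        mul_mem' := by
          rintro a b ⟨ha, ha'⟩ ⟨hb, hb'⟩
          refine ⟨Q.mul_mem ha hb, fun u hu => ?_⟩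
          rw [map_mul, Module.End.mul_apply, hb' u hu, ha' u hu]
        one_mem' := ⟨Q.one_mem, fun u _ => by simp⟩
        inv_mem' := by
          rintro a ⟨ha, ha'⟩
          refine ⟨Q.inv_mem ha, fun u hu => ?_⟩
          have h1 := ha' u hu
          calc ρ a⁻¹ u = ρ a⁻¹ (ρ a u) := by rw [h1]
            _ = u := rho_inv_apply ρ a u }
    have hzB : Subgroup.zpowers c ≤ B := Subgroup.zpowers_le.mpr hcB
    have hcomm : ⁅Q, Subgroup.zpowers c⁆ ≤ Fx := by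
      rw [Subgroup.commutator_le]
      intro h hh z hz
      have hzB' := hzB hz
      have hzN := (mem_Pres.mp hzB').1
      have hx : z * h⁻¹ * z⁻¹ ∈ Q := conj_mem_of_mem_normalizer hzN (Q.inv_mem hh)
      have e1 : ⁅h, z⁆ = h * (z * h⁻¹ * z⁻¹) := by
        rw [commutatorElement_def]
        group
      rw [e1]
      refine ⟨Q.mul_mem hh hx, fun u hu => ?_⟩
      rw [map_mul, Module.End.mul_apply, ((mem_Pres.mp hzB').2.1 h⁻¹ (hle (Q.inv_mem hh))).2 u hu, rho_apply_inv]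
    rw [hQY] at hcomm
    exact hgu₁ ((hcomm hg₁).2 u₁ hu₁)
  -- the section
  obtain ⟨E, iE, π, act, hπadd, hπsurj, hπ0, hπact⟩ := exists_section_ring Q Z B Qs_le hc2
    (fun b hb g hg => conj_mem_of_mem_normalizer (mem_Pres.mp hb).1 hg)
    (fun b hb g hg => ((mem_Pres.mp hb).2.1 g hg).1)
  have hπ1 : π 1 = 0 := by
    have := hπadd 1 1
    rw [mul_one] at this
    simpa using this
  have hπinv : ∀ x, π x⁻¹ = - π x := by
    intro x
    have := hπadd x⁻¹ x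
    rw [inv_mul_cancel, hπ1] at this
    exact (eq_neg_of_add_eq_zero_left this.symm)
  have hpE : ∀ w : E, p • w = 0 → w = 0 :=
    no_torsion hqp.symm hpp hqq hQ π hπadd hπsurj
  -- the total function
  let A : H → AddMonoid.End E := fun x => if h : x ∈ B then act ⟨x, h⟩ else 1
  have hA : ∀ x (h : x ∈ B), A x = act ⟨x, h⟩ := fun x h => dif_pos h
  have hAmul : ∀ x ∈ B, ∀ y ∈ B, A (x * y) = A x * A y := by
    intro x hx y hy
    rw [hA x hx, hA y hy, hA _ (B.mul_mem hx hy), ← map_mul]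
    rfl
  have hAone : A 1 = 1 := by
    rw [hA 1 B.one_mem]
    exact map_one act
  have hApow : ∀ x ∈ B, ∀ n : ℕ, A (x ^ n) = A x ^ n := by
    intro x hx n
    induction n with
    | zero => simpa using hAone
    | succ n ih => rw [pow_succ, hAmul _ (B.pow_mem hx n) _ hx, ih, pow_succ]
  have hAinv : ∀ x ∈ B, A x * A x⁻¹ = 1 := by
    intro x hx
    rw [← hAmul _ hx _ (B.inv_mem hx), mul_inv_cancel, hAone]
  have hAinv' : ∀ x ∈ B, A x⁻¹ * A x = 1 := by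
    intro x hx
    rw [← hAmul _ (B.inv_mem hx) _ hx, inv_mul_cancel, hAone]
  have hconjmem : ∀ x ∈ B, ∀ g : Q, x * g.1 * x⁻¹ ∈ Q := fun x hx g =>
    conj_mem_of_mem_normalizer (mem_Pres.mp hx).1 g.2
  have hAπ : ∀ x (hx : x ∈ B) (g : Q), A x (π g) = π ⟨_, hconjmem x hx g⟩ := by
    intro x hx g
    rw [hA x hx]
    exact hπact ⟨x, hx⟩ g ⟨_, hconjmem x hx g⟩ rfl
  have hAfix : ∀ x (hx : x ∈ B) (g : Q), A x (π g) = π g → x * g.1 * x⁻¹ * g.1⁻¹ ∈ Z := by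
    intro x hx g h
    have hm : x * g.1 * x⁻¹ * g.1⁻¹ ∈ Q := Q.mul_mem (hconjmem x hx g) (Q.inv_mem g.2)
    have e : (⟨_, hm⟩ : Q) = ⟨_, hconjmem x hx g⟩ * g⁻¹ := Subtype.ext rfl
    apply (hπ0 ⟨_, hm⟩).mp
    rw [e, hπadd, hπinv, ← hAπ x hx g, h, add_neg_cancel]
  set C := A c with hCdef
  have hfpfE : ∀ v, C v = v → v = 0 := by
    intro v hv
    obtain ⟨g, rfl⟩ := hπsurj v
    exact (hπ0 g).mpr (hfpf g.1 g.2 (hAfix c hcB g hv))
  have hCcomm : ∀ x ∈ B, x ∈ P → A x * C = C * A x := by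
    intro x hx hxP
    rw [hCdef, ← hAmul _ hx _ hcB, ← hAmul _ hcB _ hx, hcZ x hxP]
  -- the quadratic identity
  have hquad : ∀ y ∈ Y, ∃ k : ℕ, (A y - 1) * (A y - C ^ k) = 0 := by
    rintro _ ⟨z, hz, rfl⟩
    by_cases hz1 : z ^ p ^ e = 1
    · refine ⟨0, ?_⟩
      rw [hz1, hAone]
      simp
    obtain ⟨t, n, U, hU, hhom, htP, hpw, DD⟩ := hloc z hz hz1
    have hqs := Qs_eq_of_hom hU₀ hU hhom
    have hps := Pres_eq_of_hom hU₀ hU hhom
    obtain ⟨k, hk⟩ := DD.quadratic (c := c) (by rw [← hps]; exact hcB) (hcZ t htP).symm hcord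
      (by
        rw [← hqs]
        exact hfpf)
    rw [hpw, ← hqs] at hk
    refine ⟨k, ?_⟩
    set y := z ^ p ^ e with hy
    have hyB := hYB y ⟨z, hz, rfl⟩
    have hyP := hYP y ⟨z, hz, rfl⟩
    have hcomm0 : Commute (A y) C := hCcomm y hyB hyP
    have hCk : C ^ k = A (c ^ k) := (hApow c hcB k).symm
    have hmain : (A y - C ^ k) * (A y - 1) = 0 := by
      refine AddMonoidHom.ext (fun v => ?_)
      change ((A y - C ^ k) * (A y - 1) : AddMonoid.End E) v = 0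
      obtain ⟨g, rfl⟩ := hπsurj v
      have hg₁Q : y * g.1 * y⁻¹ * g.1⁻¹ ∈ Q := Q.mul_mem (hconjmem y hyB g) (Q.inv_mem g.2)
      have e1 : (A y - 1) (π g) = π ⟨_, hg₁Q⟩ := by
        have e : (⟨_, hg₁Q⟩ : Q) = ⟨_, hconjmem y hyB g⟩ * g⁻¹ := Subtype.ext rfl
        rw [e, hπadd, hπinv, ← hAπ y hyB g, ← sub_eq_add_neg]
        rfl
      have hmem : y * g.1 * y⁻¹ * g.1⁻¹ ∈ ⁅Q, Subgroup.zpowers y⁆ := by
        have e2 : y * g.1 * y⁻¹ * g.1⁻¹ = ⁅g.1, y⁆⁻¹ := by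
          rw [commutatorElement_def]
          group
        rw [e2]
        exact Subgroup.inv_mem _ (Subgroup.commutator_mem_commutator g.2 (Subgroup.mem_zpowers y))
      have hk' := hk _ hmem
      rw [end_mul_apply, e1]
      set g₂ : Q := ⟨_, hg₁Q⟩ with hg₂
      have hckB : c ^ k ∈ B := B.pow_mem hcB k
      have e3 : (A y - C ^ k) (π g₂) = π ⟨_, hconjmem y hyB g₂⟩ - π ⟨_, hconjmem _ hckB g₂⟩ := by
        rw [← hAπ y hyB g₂, ← hAπ _ hckB g₂, hCk]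
        rfl
      have hm3 : y * g₂.1 * y⁻¹ * (c ^ k * g₂.1 * (c ^ k)⁻¹)⁻¹ ∈ Q :=
        Q.mul_mem (hconjmem y hyB g₂) (Q.inv_mem (hconjmem _ hckB g₂))
      have e4 : (⟨_, hm3⟩ : Q) = ⟨_, hconjmem y hyB g₂⟩ * (⟨_, hconjmem _ hckB g₂⟩ : Q)⁻¹ := Subtype.ext rfl
      have e5 : π ⟨_, hm3⟩ = 0 := (hπ0 ⟨_, hm3⟩).mpr hk'
      rw [e4, hπadd, hπinv, ← sub_eq_add_neg] at e5
      rw [e3, e5]
    have hcomm1 : Commute (A y - 1) (A y - C ^ k) :=
      ((Commute.refl _).sub_left (Commute.one_left _)).sub_right ((hcomm0.pow_right k).sub_left (Commute.one_left _))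
    rw [hcomm1.eq]
    exact hmain
  -- no non-commuting pair on `E`
  have hcommA : ∀ x ∈ B, ∀ x' ∈ B, A ⁅x, x'⁆ = 1 → A x * A x' = A x' * A x := by
    intro x hx x' hx' h
    have hm : ⁅x, x'⁆ ∈ B := by
      rw [commutatorElement_def]
      exact B.mul_mem (B.mul_mem (B.mul_mem hx hx') (B.inv_mem hx)) (B.inv_mem hx')
    have e : x * x' = ⁅x, x'⁆ * (x' * x) := by
      rw [commutatorElement_def]
      group
    rw [← hAmul _ hx _ hx', e, hAmul _ hm _ (B.mul_mem hx' hx), h, one_mul, hAmul _ hx' _ hx]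
  have hkey : ∀ a ∈ Y, ∀ b ∈ Y, A ⁅a, b⁆ = 1 := by
    by_contra hno
    push Not at hno
    obtain ⟨a₀, ha₀, b₀, hb₀, hab₀⟩ := hno
    have hYcomm : ∀ a ∈ Y, ∀ b ∈ Y, ⁅a, b⁆ ∈ P := by
      intro a ha b hb
      have h1 := hYP a ha
      have h2 := hYP b hb
      rw [commutatorElement_def]
      exact P.mul_mem (P.mul_mem (P.mul_mem h1 h2) (P.inv_mem h1)) (P.inv_mem h2)
    let Pk : ℕ → Prop := fun k => ∃ a ∈ Y, ∃ b ∈ Y,
      ⁅a, b⁆ ∈ P.lowerCentralSeries k ∧ A ⁅a, b⁆ ≠ 1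
    have hP0 : Pk 0 := ⟨a₀, ha₀, b₀, hb₀, by
      rw [Subgroup.lowerCentralSeries_zero]
      exact hYcomm a₀ ha₀ b₀ hb₀, hab₀⟩
    haveI : Group.IsNilpotent (↥P) := hP.isNilpotent
    obtain ⟨n, hn⟩ := (Subgroup.isNilpotent_iff_lowerCentralSeries P).mp inferInstance
    have hPn : ¬ Pk n := by
      rintro ⟨a, -, b, -, hL, hne⟩
      rw [hn, Subgroup.mem_bot] at hL
      rw [hL] at hne
      exact hne hAone
    have hex : ∃ k, ¬ Pk k := ⟨n, hPn⟩
    have hk₀ : Nat.find hex ≠ 0 := by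
      intro h0
      have h1 := Nat.find_spec hex
      rw [h0] at h1
      exact h1 hP0
    obtain ⟨k, hk⟩ := Nat.exists_eq_succ_of_ne_zero hk₀
    have hPk : Pk k := by
      have h1 := Nat.find_min hex (m := k) (by omega)
      exact not_not.mp h1
    have hPk1 : ¬ Pk (k + 1) := by
      have h1 := Nat.find_spec hex
      rw [hk] at h1
      exact h1
    obtain ⟨a, ha, b, hb, hL, hτne⟩ := hPk
    have hm : ⁅a, b⁆ ∈ P := hYcomm a ha b hb
    have hnext : ∀ a' ∈ Y, ∀ b' ∈ Y, ∀ w : P, ⁅a', b'⁆ = ⁅⁅a, b⁆, w.1⁆ → A ⁅a', b'⁆ = 1 := by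
      intro a' ha' b' hb' w hw
      by_contra hne
      apply hPk1
      refine ⟨a', ha', b', hb', ?_, hne⟩
      rw [hw, Subgroup.lowerCentralSeries_succ]
      exact Subgroup.commutator_mem_commutator hL w.2
    have haB := hYB a ha
    have hbB := hYB b hb
    have haP := hYP a ha
    have hbP := hYP b hb
    have haiB := B.inv_mem haB
    have haiP := P.inv_mem haP
    set t := ⁅a, b⁆ with ht
    have htB : t ∈ B := by
      rw [ht, commutatorElement_def]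
      exact B.mul_mem (B.mul_mem (B.mul_mem haB hbB) (B.inv_mem haB)) (B.inv_mem hbB)
    have hwY : b * a⁻¹ * b⁻¹ ∈ Y := hYconj b hbP a⁻¹ (hYinv a ha)
    have hwB : b * a⁻¹ * b⁻¹ ∈ B := hYB _ hwY
    have h1 : A ⁅t, a⁻¹⁆ = 1 := by
      have e : ⁅a, b * a⁻¹ * b⁻¹⁆ = ⁅t, a⁻¹⁆ := by
        simp only [ht, commutatorElement_def]
        group
      rw [← e]
      exact hnext a ha _ hwY ⟨a⁻¹, haiP⟩ e
    have h2 : A ⁅t, b⁆ = 1 := by
      have e : ⁅a * b * a⁻¹, b⁆ = ⁅t, b⁆ := by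
        simp only [ht, commutatorElement_def]
        group
      rw [← e]
      exact hnext _ (hYconj a haP b hb) b hb ⟨b, hbP⟩ e
    have hτY := hcommA t htB a⁻¹ haiB h1
    have hτB := hcommA t htB b hbB h2
    obtain ⟨l, hl⟩ := hquad a⁻¹ (hYinv a ha)
    have hBy : A b * A a⁻¹ = A a⁻¹ * A t * A b := by
      rw [← hAmul _ hbB _ haiB, ← hAmul _ haiB _ htB, ← hAmul _ (B.mul_mem haiB htB) _ hbB]
      congr 1
      simp only [ht, commutatorElement_def]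
      group
    have hCc : ∀ x ∈ B, x ∈ P → Commute (C ^ l) (A x) := fun x hx hxP => by
      have hh : Commute (A x) C := hCcomm x hx hxP
      exact (Commute.symm hh).pow_left l
    have hCi : Commute (A c⁻¹) C := (hAinv' c hcB).trans (hAinv c hcB).symm
    have hξ : A c⁻¹ ^ l * C ^ l = 1 := by
      rw [← hCi.mul_pow, hAinv' c hcB, one_pow]
    have htP : t ∈ P := hm
    have hid := alg_core (hAinv b hbB) hξ hl hτY.symm hτB.symm hBy (hCc _ haiB haiP) (hCc _ htB htP)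
      (hCc _ hbB hbP)
    have hpw : A (b * a⁻¹ * b⁻¹) ^ p = 1 := by
      rw [← hApow _ hwB, hYp _ hwY, hAone]
    have hAw : A (b * a⁻¹ * b⁻¹) = A a⁻¹ * A t := by
      rw [← hAmul _ haiB _ htB]
      congr 1
      simp only [ht, commutatorElement_def]
      group
    have hy1 : A a⁻¹ ^ p = 1 := by
      rw [← hApow _ haiB, hYp _ (hYinv a ha), hAone]
    have hτp : A t ^ p = 1 := by
      have hcc : Commute (A a⁻¹) (A t) := hτY.symm
      rw [hAw, hcc.mul_pow, hy1, one_mul] at hpw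
      exact hpw
    exact hτne (eq_one_of_identity hodd hpE hτp hid)
  have hDker : ∀ d ∈ D, A d = 1 := by
    intro d hd
    induction hd using Subgroup.closure_induction with
    | mem x hx =>
      obtain ⟨a, ha, b, hb, rfl⟩ := hx
      exact hkey a ha b hb
    | one => exact hAone
    | mul x y hx hy ihx ihy => rw [hAmul _ (hDB hx) _ (hDB hy), ihx, ihy, one_mul]
    | inv x hx ih =>
      have h1 := hAinv' x (hDB hx)
      rwa [ih, mul_one] at h1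
  have hC1 : C = 1 := hDker c hcD
  apply hQZ
  intro g hg
  have h1 : C (π ⟨g, hg⟩) = π ⟨g, hg⟩ := by
    rw [hC1]
    rfl
  exact (hπ0 ⟨g, hg⟩).mp (hfpfE _ h1)

end main

end Cfsg.Agent.Lib.HHLen.Commuting
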