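/-
The bound `2 e` for the `p`-length of a `p`-solvable group, `p` odd, whose Sylow `p`-subgroups have
exponent dividing `p ^ e`.
-/
import Cfsg.Agent.Lib.HHLen.Commuting
import Cfsg.Agent.Lib.HallHigman.Exponent

set_option autoImplicit false
set_option linter.style.haveILetI false

open Cfsg

namespace Cfsg.Agent.Lib.HHLen.Length

open Module Cfsg.Agent.Lib.HallHigman.Core Cfsg.Agent.Lib.HallHigman.Exponent
  Cfsg.Agent.Lib.HHLen.Commuting
  Cfsg.Agent.Lib.Core.Basic Cfsg.Agent.Lib.Core.PSolvable Cfsg.Agent.Lib.Core.PLength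

universe u v w

variable {p : ℕ} [hp : Fact p.Prime]

/-- The commuting lemma over an arbitrary field of characteristic `p`. -/
theorem commuting_powers {F : Type u} [Field F] [CharP F p] {V : Type v} [AddCommGroup V] [Module F V]
    [FiniteDimensional F V] {H : Type w} [Group H] [Finite H]
    (hp2 : p ≠ 2) (hsol : IsPSolvable p H) (hOp : pCore p H = ⊥)
    (ρ : H →* End F V) (hρ : Function.Injective ρ) (P : Subgroup H) (hP : IsPGroup p P) (e : ℕ)
    (hexp : ∀ z ∈ P, z ^ p ^ (e + 1) = 1) (hnil : ∀ z ∈ P, (ρ z - 1) ^ (p ^ (e + 1) - 1) = 0) :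
    ∀ z ∈ P, ∀ z' ∈ P, z ^ p ^ e * z' ^ p ^ e = z' ^ p ^ e * z ^ p ^ e := by
  let K := AlgebraicClosure F
  let b := Module.End.baseChangeHom F K V
  let ρ' : H →* End K (TensorProduct F K V) := (b.toMonoidHom).comp ρ
  have hρ' : Function.Injective ρ' := by
    intro h₁ h₂ h
    exact hρ (LinearMap.baseChangeHom_injective F V K h)
  haveI : CharP K p := charP_of_injective_algebraMap (algebraMap F K).injective p
  refine commuting_powers_alg hp2 hsol hOp ρ' hρ' P hP e hexp (fun z hz => ?_)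
  have h1 := congrArg b (hnil z hz)
  rw [map_pow, map_sub, map_one, map_zero] at h1
  exact h1

/-- The elements `z ^ p ^ e` of a Sylow `p`-subgroup of `G / O_p(G)` commute. -/
theorem sylow_commuting (hp2 : p ≠ 2) {G : Type u} [Group G] [Finite G] (hS : IsPSolvable p G)
    (hred : pPrimeCore p G = ⊥) (e : ℕ)
    (hexp : ∀ (P : Sylow p G), ∀ x ∈ (P : Subgroup G), x ^ p ^ (e + 1) = 1)
    (P : Sylow p (G ⧸ pCore p G)) :
    ∀ z ∈ (P : Subgroup (G ⧸ pCore p G)), ∀ z' ∈ (P : Subgroup (G ⧸ pCore p G)),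
      z ^ p ^ e * z' ^ p ^ e = z' ^ p ^ e * z ^ p ^ e := by
  let T := pCore p G
  let f₂ := QuotientGroup.mk' T
  have hf₂ : Function.Surjective f₂ := QuotientGroup.mk'_surjective T
  have hS₂ : IsPSolvable p (G ⧸ T) := isPSolvable_of_surjective f₂ hf₂ hS
  have hOp : pCore p (G ⧸ T) = ⊥ := pCore_quotient_eq_bot
  obtain ⟨V, i1, i2, i3, ρ, π, hinj, -, -, -, hnorm⟩ := exists_faithful_module hS hred
  have hexp₂ := exponent_of_surjective f₂ hf₂ hexp
  refine commuting_powers (F := ZMod p) hp2 hS₂ hOp ρ hinj (P : Subgroup (G ⧸ T)) P.isPGroup' e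
    (hexp₂ P) (fun z hz => ?_)
  obtain ⟨S, rfl⟩ := Sylow.mapSurjective_surjective hf₂ p P
  obtain ⟨x', hx', rfl⟩ := hz
  have hm : ∀ t ∈ T, (t * x') ^ p ^ (e + 1) = x' ^ p ^ (e + 1) := by
    intro t ht
    have ht' : t ∈ (S : Subgroup G) := pCore_le_sylow S ht
    rw [hexp S _ ((S : Subgroup G).mul_mem ht' hx'), hexp S x' hx']
  have h0 := hnorm x' _ hm
  rw [sum_pow_eq (K := ZMod p) (p := p)] at h0
  exact h0

/-- Pairwise commuting `p ^ e`-th powers pass to quotients. -/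
theorem sylow_commuting_of_surjective {G H : Type u} [Group G] [Group H] [Finite G] {e : ℕ}
    (f : G →* H) (hf : Function.Surjective f)
    (hcomm : ∀ (P : Sylow p G), ∀ z ∈ (P : Subgroup G), ∀ z' ∈ (P : Subgroup G),
      z ^ p ^ e * z' ^ p ^ e = z' ^ p ^ e * z ^ p ^ e) :
    ∀ (P : Sylow p H), ∀ z ∈ (P : Subgroup H), ∀ z' ∈ (P : Subgroup H),
      z ^ p ^ e * z' ^ p ^ e = z' ^ p ^ e * z ^ p ^ e := by
  intro P z hz z' hz'
  obtain ⟨S, rfl⟩ := Sylow.mapSurjective_surjective hf p P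
  obtain ⟨y, hy, rfl⟩ := hz
  obtain ⟨y', hy', rfl⟩ := hz'
  change f y ^ p ^ e * f y' ^ p ^ e = f y' ^ p ^ e * f y ^ p ^ e
  rw [← map_pow, ← map_pow, ← map_mul, ← map_mul, hcomm S y hy y' hy']

/-- The exponent of a Sylow `p`-subgroup drops under the commuting hypothesis. -/
theorem exponent_of_commuting (hp2 : p ≠ 2) {G : Type u} [Group G] [Finite G] (hS : IsPSolvable p G)
    (hred : pPrimeCore p G = ⊥) (e : ℕ)
    (hexp : ∀ (P : Sylow p G), ∀ x ∈ (P : Subgroup G), x ^ p ^ (e + 1) = 1)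
    (hcomm : ∀ (P : Sylow p G), ∀ z ∈ (P : Subgroup G), ∀ z' ∈ (P : Subgroup G),
      z ^ p ^ e * z' ^ p ^ e = z' ^ p ^ e * z ^ p ^ e) :
    ∀ (P : Sylow p (G ⧸ pCore p G)), ∀ x ∈ (P : Subgroup (G ⧸ pCore p G)), x ^ p ^ e = 1 := by
  classical
  have hpp : p.Prime := hp.out
  have hp3 : 3 ≤ p := by
    have := hpp.two_le
    omega
  intro P x hx
  let T := pCore p G
  have hTn : T.Normal := inferInstance
  let f₂ := QuotientGroup.mk' T
  have hf₂ : Function.Surjective f₂ := QuotientGroup.mk'_surjective T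
  have hS₂ : IsPSolvable p (G ⧸ T) := isPSolvable_of_surjective f₂ hf₂ hS
  have hOp : pCore p (G ⧸ T) = ⊥ := pCore_quotient_eq_bot
  obtain ⟨V, i1, i2, i3, ρ, π, hinj, hπadd, hπsurj, hπact, -⟩ := exists_faithful_module hS hred
  obtain ⟨S, rfl⟩ := Sylow.mapSurjective_surjective hf₂ p P
  obtain ⟨x₁, hx₁, rfl⟩ := hx
  set xb : G ⧸ T := (x₁ : G ⧸ T) with hxb
  change xb ^ p ^ e = 1
  have hxb1 : xb ^ p ^ (e + 1) = 1 := by
    rw [hxb, ← QuotientGroup.mk_pow, hexp S x₁ hx₁]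
    rfl
  obtain ⟨k, hk, hord⟩ := (Nat.dvd_prime_pow hpp).mp (orderOf_dvd_of_pow_eq_one hxb1)
  by_cases hke : k ≤ e
  · rw [← orderOf_dvd_iff_pow_eq_one, hord]
    exact pow_dvd_pow p hke
  exfalso
  have hke' : k = e + 1 := by omega
  rw [hke'] at hord
  have hpe : 0 < p ^ e := pow_pos hpp.pos _
  have hpe1 : p ^ (e + 1) = p ^ e * p := pow_succ p e
  have hmul3 : 3 * p ^ e ≤ p ^ e * p := by nlinarith
  have hne : (ρ xb - 1) ^ (2 * p ^ e - 1) ≠ 0 := by
    intro h0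
    rcases thmB_rep hS₂ hOp ρ hinj xb e hord _ h0 with
      h | ⟨q, n₀, m, Q, hq, hqp, hQ, hnc, h1, h2, h3, h4, h5⟩
    · omega
    · have ha : p ^ (e + 1 - n₀) ≤ p ^ e := Nat.pow_le_pow_right hpp.pos (by omega)
      have hc : p ^ (e + 1 - n₀) * p ^ n₀ = p ^ (e + 1) := by
        rw [← pow_add]
        congr 1
        omega
      have hn : 1 ≤ p ^ n₀ := Nat.one_le_pow _ _ hpp.pos
      obtain ⟨c, hc'⟩ : ∃ c, p ^ n₀ = c + 1 := ⟨p ^ n₀ - 1, by omega⟩
      rw [hc'] at h5 hc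
      rw [Nat.add_sub_cancel] at h5
      have h6 : p ^ (e + 1 - n₀) * (c + 1) = p ^ (e + 1 - n₀) * c + p ^ (e + 1 - n₀) := by ring
      omega
  have hxex : ∃ v, ((ρ xb - 1) ^ (2 * p ^ e - 1)) v ≠ 0 := by
    by_contra hno
    push Not at hno
    exact hne (LinearMap.ext hno)
  obtain ⟨v, hv⟩ := hxex
  obtain ⟨t, rfl⟩ := hπsurj v
  have htS : t.1 ∈ (S : Subgroup G) := pCore_le_sylow S t.2
  have hy := hcomm S x₁ hx₁ (t.1 * x₁) ((S : Subgroup G).mul_mem htS hx₁)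
  -- the norm formula
  have hπ1 : π 1 = 0 := by
    have := hπadd 1 1
    rw [mul_one] at this
    simpa using this
  have hρb : ρ xb = ρ (x₁ : G ⧸ T) := rfl
  have hnorm : ∀ (m : ℕ) (w : T), w.1 = (t.1 * x₁) ^ m * (x₁ ^ m)⁻¹ →
      π w = ∑ i ∈ Finset.range m, ((ρ xb) ^ i) (π t) := by
    intro m
    induction m with
    | zero =>
      intro w hw
      have : w = 1 := Subtype.ext (by simpa using hw)
      rw [this, hπ1]
      simp
    | succ m ih =>
      intro w hw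
      have hmem : (t.1 * x₁) ^ m * (x₁ ^ m)⁻¹ ∈ T := by
        have h1 : ((t.1 * x₁ : G) : G ⧸ T) = (x₁ : G ⧸ T) := by
          rw [QuotientGroup.eq]
          have e : (t.1 * x₁)⁻¹ * x₁ = x₁⁻¹ * t.1⁻¹ * x₁ := by group
          rw [e]
          have := hTn.conj_mem t.1⁻¹ (T.inv_mem t.2) x₁⁻¹
          simpa using this
        have h2 : (((t.1 * x₁) ^ m : G) : G ⧸ T) = ((x₁ ^ m : G) : G ⧸ T) := by
          rw [QuotientGroup.mk_pow, QuotientGroup.mk_pow, h1]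
        rw [QuotientGroup.eq] at h2
        have h3 := hTn.conj_mem _ h2 ((t.1 * x₁) ^ m)
        have e : (t.1 * x₁) ^ m * (((t.1 * x₁) ^ m)⁻¹ * x₁ ^ m) * ((t.1 * x₁) ^ m)⁻¹
            = x₁ ^ m * ((t.1 * x₁) ^ m)⁻¹ := by group
        rw [e] at h3
        have h4 := T.inv_mem h3
        simpa using h4
      have hih := ih ⟨_, hmem⟩ rfl
      have hmem2 : x₁ * ((t.1 * x₁) ^ m * (x₁ ^ m)⁻¹) * x₁⁻¹ ∈ T := hTn.conj_mem _ hmem x₁
      have h5 := hπact x₁ ⟨_, hmem⟩ ⟨_, hmem2⟩ rfl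
      have e : w = t * ⟨_, hmem2⟩ := by
        apply Subtype.ext
        rw [hw]
        change _ = t.1 * (x₁ * ((t.1 * x₁) ^ m * (x₁ ^ m)⁻¹) * x₁⁻¹)
        rw [pow_succ', pow_succ']
        group
      rw [e, hπadd, ← h5, hih, Finset.sum_range_succ', pow_zero, Module.End.one_apply, map_sum,
        add_comm]
      congr 1
      refine Finset.sum_congr rfl (fun i _ => ?_)
      rw [pow_succ', Module.End.mul_apply]
  have hwmem : (t.1 * x₁) ^ p ^ e * (x₁ ^ p ^ e)⁻¹ ∈ T := by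
    have h1 : ((t.1 * x₁ : G) : G ⧸ T) = (x₁ : G ⧸ T) := by
      rw [QuotientGroup.eq]
      have e : (t.1 * x₁)⁻¹ * x₁ = x₁⁻¹ * t.1⁻¹ * x₁ := by group
      rw [e]
      have := hTn.conj_mem t.1⁻¹ (T.inv_mem t.2) x₁⁻¹
      simpa using this
    have h2 : (((t.1 * x₁) ^ p ^ e : G) : G ⧸ T) = ((x₁ ^ p ^ e : G) : G ⧸ T) := by
      rw [QuotientGroup.mk_pow, QuotientGroup.mk_pow, h1]
    rw [QuotientGroup.eq] at h2
    have h3 := hTn.conj_mem _ h2 ((t.1 * x₁) ^ p ^ e)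
    have e : (t.1 * x₁) ^ p ^ e * (((t.1 * x₁) ^ p ^ e)⁻¹ * x₁ ^ p ^ e) * ((t.1 * x₁) ^ p ^ e)⁻¹
        = x₁ ^ p ^ e * ((t.1 * x₁) ^ p ^ e)⁻¹ := by group
    rw [e] at h3
    have h4 := T.inv_mem h3
    simpa using h4
  have hw := hnorm (p ^ e) ⟨_, hwmem⟩ rfl
  have hsum : ∑ i ∈ Finset.range (p ^ e), ((ρ xb) ^ i) (π t)
      = ((ρ xb - 1) ^ (p ^ e - 1)) (π t) := by
    rw [← sum_pow_eq (K := ZMod p) (p := p), LinearMap.sum_apply]
  rw [hsum] at hw
  -- `y₀` fixes `w`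
  have hfix : x₁ ^ p ^ e * ((t.1 * x₁) ^ p ^ e * (x₁ ^ p ^ e)⁻¹) * (x₁ ^ p ^ e)⁻¹
      = (t.1 * x₁) ^ p ^ e * (x₁ ^ p ^ e)⁻¹ := by
    rw [← mul_assoc (x₁ ^ p ^ e), hy]
    group
  have hact := hπact (x₁ ^ p ^ e) ⟨_, hwmem⟩ ⟨_, hwmem⟩ hfix.symm
  have hρpow : ρ ((x₁ ^ p ^ e : G) : G ⧸ T) = (ρ xb) ^ p ^ e := by
    rw [QuotientGroup.mk_pow, map_pow]
  rw [hρpow, hw] at hact
  apply hv
  have h2e : 2 * p ^ e - 1 = p ^ e + (p ^ e - 1) := by omega
  rw [h2e, pow_add, Module.End.mul_apply, sub_one_pow (K := ZMod p) (p := p), LinearMap.sub_apply,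
    hact, Module.End.one_apply, sub_self]

/-- **Hall-Higman**: for `p` odd the `p`-length is at most twice the exponent. -/
theorem pLength_le_two_mul (hp2 : p ≠ 2) (e : ℕ) :
    ∀ (G : Type u) [Group G] [Finite G], IsPSolvable p G →
      (∀ (P : Sylow p G), ∀ x ∈ (P : Subgroup G), x ^ p ^ e = 1) → PLengthLE p (2 * e) G := by
  have hpp : p.Prime := hp.out
  induction e with
  | zero =>
    intro G _ _ hS hexp
    rw [Nat.mul_zero, pLengthLE_zero_iff]
    rw [Nat.coprime_comm, Nat.Prime.coprime_iff_not_dvd hpp]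
    intro hd
    obtain ⟨x, hx⟩ := exists_prime_orderOf_dvd_card' (G := G) p hd
    obtain ⟨S, hS'⟩ := (IsPGroup.of_card (n := 1) (G := Subgroup.zpowers x)
      (by rw [Nat.card_zpowers, hx, pow_one])).exists_le_sylow
    have h1 := hexp S x (hS' (Subgroup.mem_zpowers x))
    have h2 : orderOf x = 1 := by
      simpa using orderOf_dvd_of_pow_eq_one h1
    rw [hx] at h2
    exact hpp.one_lt.ne' h2
  | succ e ih =>
    intro G _ _ hS hexp
    -- `G₀ = G / O_{p'}(G)`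
    let N := pPrimeCore p G
    let f := QuotientGroup.mk' N
    have hf : Function.Surjective f := QuotientGroup.mk'_surjective N
    have hS₀ : IsPSolvable p (G ⧸ N) := isPSolvable_of_surjective f hf hS
    have hred₀ : pPrimeCore p (G ⧸ N) = ⊥ := pPrimeCore_quotient_eq_bot
    have hexp₀ := exponent_of_surjective f hf hexp
    -- `F = G₀ / O_p(G₀)`
    let T₁ := pCore p (G ⧸ N)
    let g := QuotientGroup.mk' T₁
    have hg : Function.Surjective g := QuotientGroup.mk'_surjective T₁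
    have hSF : IsPSolvable p ((G ⧸ N) ⧸ T₁) := isPSolvable_of_surjective g hg hS₀
    have hexpF := exponent_of_surjective g hg hexp₀
    have hcommF := sylow_commuting hp2 hS₀ hred₀ e hexp₀
    -- `F₁ = F / O_{p'}(F)`
    let R := pPrimeCore p ((G ⧸ N) ⧸ T₁)
    let h := QuotientGroup.mk' R
    have hh : Function.Surjective h := QuotientGroup.mk'_surjective R
    have hSF₁ : IsPSolvable p (((G ⧸ N) ⧸ T₁) ⧸ R) := isPSolvable_of_surjective h hh hSF
    have hredF₁ : pPrimeCore p (((G ⧸ N) ⧸ T₁) ⧸ R) = ⊥ := pPrimeCore_quotient_eq_bot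
    have hexpF₁ := exponent_of_surjective h hh hexpF
    have hcommF₁ := sylow_commuting_of_surjective h hh hcommF
    -- `F₂ = F₁ / O_p(F₁)`
    let T₂ := pCore p (((G ⧸ N) ⧸ T₁) ⧸ R)
    let k := QuotientGroup.mk' T₂
    have hk : Function.Surjective k := QuotientGroup.mk'_surjective T₂
    have hSF₂ : IsPSolvable p ((((G ⧸ N) ⧸ T₁) ⧸ R) ⧸ T₂) := isPSolvable_of_surjective k hk hSF₁
    have hexpF₂ := exponent_of_commuting hp2 hSF₁ hredF₁ e hexpF₁ hcommF₁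
    have hIH : PLengthLE p (2 * e) (((((G ⧸ N) ⧸ T₁) ⧸ R) ⧸ T₂)) := ih _ hSF₂ hexpF₂
    have h1 : PLengthLE p (1 + 2 * e) (((G ⧸ N) ⧸ T₁) ⧸ R) := by
      refine PLengthLE.of_ker k hk ?_ hIH
      rw [QuotientGroup.ker_mk']
      exact pLengthLE_one_of_isPGroup pCore_isPGroup
    have h2 : PLengthLE p (0 + (1 + 2 * e)) ((G ⧸ N) ⧸ T₁) := by
      refine PLengthLE.of_ker h hh ?_ h1
      rw [QuotientGroup.ker_mk']
      exact pLengthLE_zero_iff.mpr pPrimeCore_coprime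
    have h3 : PLengthLE p (1 + (0 + (1 + 2 * e))) (G ⧸ N) := by
      refine PLengthLE.of_ker g hg ?_ h2
      rw [QuotientGroup.ker_mk']
      exact pLengthLE_one_of_isPGroup pCore_isPGroup
    have h4 : PLengthLE p (0 + (1 + (0 + (1 + 2 * e)))) G := by
      refine PLengthLE.of_ker f hf ?_ h3
      rw [QuotientGroup.ker_mk']
      exact pLengthLE_zero_iff.mpr pPrimeCore_coprime
    have e2 : 2 * (e + 1) = 0 + (1 + (0 + (1 + 2 * e))) := by ring
    rw [e2]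
    exact h4

end Cfsg.Agent.Lib.HHLen.Length
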